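import Cfsg.Prelude.Def_CaseTheorems
import Cfsg.Prelude.Def_LocalEven
import Cfsg.Agent.PCore.Basic
import Cfsg.Agent.ZJ.J
import Cfsg.Agent.ZJ.Involves
import Cfsg.Agent.ZJ.Replacement

/-!
Local subgroups for the factorization of solvable `S₄`-free groups of characteristic `2`:
Sylow subgroups inside an ambient group, the `2`-core, squared offender bounds and the subgroup built from them.
-/

set_option autoImplicit false
set_option linter.unusedSectionVars false
set_option linter.style.haveILetI false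

namespace CfsgLib.SolvFactor

open CfsgLib.ZJ (Good maxGood)
open scoped Pointwise

variable {G : Type*} [Group G] [Finite G]

/-- `U` is a Sylow `2`-subgroup of `L`. -/
def IsSyl (L U : Subgroup G) : Prop :=
  U ≤ L ∧ IsPGroup 2 U ∧ ∀ P : Subgroup G, P ≤ L → IsPGroup 2 P → U ≤ P → P = U

/-- `O₂(L)` inside the ambient group. -/
def core (L : Subgroup G) : Subgroup G := (Cfsg.pCore 2 L).map L.subtype

/-- Solvable, of characteristic `2`, without a section `S₄`. -/
structure Loc (L : Subgroup G) : Prop where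
  solv : Group.IsSolvable L
  char2 : ∀ g ∈ L, (∀ q ∈ core L, q * g = g * q) → g ∈ core L
  s4free : ¬ Cfsg.Involves (Equiv.Perm (Fin 4)) L

theorem conj_eq_iff {g x : G} : g * x * g⁻¹ = x ↔ g * x = x * g := mul_inv_eq_iff_eq_mul

theorem mem_centralizer {V : Subgroup G} {g : G} :
    g ∈ Subgroup.centralizer (V : Set G) ↔ ∀ v ∈ V, v * g = g * v := Subgroup.mem_centralizer_iff

theorem mem_centralizer_conj {V : Subgroup G} {g : G} :
    g ∈ Subgroup.centralizer (V : Set G) ↔ ∀ v ∈ V, g * v * g⁻¹ = v := by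
  rw [mem_centralizer]
  exact forall₂_congr fun v _ => by rw [conj_eq_iff, eq_comm]

theorem mem_normalizer_of_conj {V : Subgroup G} {g : G} (h : ∀ v ∈ V, g * v * g⁻¹ ∈ V) :
    g ∈ Subgroup.normalizer (V : Set G) := Subgroup.mem_normalizer_fintype h

theorem conj_mem {V : Subgroup G} {g v : G} (h : g ∈ Subgroup.normalizer (V : Set G)) (hv : v ∈ V) :
    g * v * g⁻¹ ∈ V := (Subgroup.mem_normalizer_iff.1 h v).1 hv

theorem conj_mem' {V : Subgroup G} {g v : G} (h : g ∈ Subgroup.normalizer (V : Set G)) (hv : v ∈ V) :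
    g⁻¹ * v * g ∈ V := by simpa using conj_mem (inv_mem h) hv

theorem mem_map_conj {P : Subgroup G} {l x : G} :
    x ∈ P.map (MulAut.conj l).toMonoidHom ↔ l⁻¹ * x * l ∈ P := by
  constructor
  · rintro ⟨y, hy, rfl⟩
    show l⁻¹ * (l * y * l⁻¹) * l ∈ P
    rwa [show l⁻¹ * (l * y * l⁻¹) * l = y by group]
  · intro h
    exact ⟨_, h, by show l * (l⁻¹ * x * l) * l⁻¹ = x; group⟩

theorem card_map_conj (P : Subgroup G) (l : G) :
    Nat.card (P.map (MulAut.conj l).toMonoidHom) = Nat.card P :=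
  Subgroup.card_map_of_injective (MulAut.conj l).injective

theorem involves_of_injective {H K : Type*} [Group H] [Group K] (f : H →* K) (hf : Function.Injective f)
    {T : Type*} [Group T] (h : Cfsg.Involves T H) : Cfsg.Involves T K := by
  obtain ⟨L, φ, hφ⟩ := CfsgLib.ZJ.exists_hom_of_involves h
  refine CfsgLib.ZJ.involves_of_hom (L.map f) (φ.comp (L.equivMapOfInjective f hf).symm.toMonoidHom) ?_
  exact hφ.comp (MulEquiv.surjective _)

/-! ### The core -/

theorem core_le (L : Subgroup G) : core L ≤ L := Subgroup.map_subtype_le _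

theorem core_isPGroup (L : Subgroup G) : IsPGroup 2 (core L) :=
  (CfsgLib.PCore.isPGroup_pCore 2 L).map _

theorem le_normalizer_core (L : Subgroup G) : L ≤ Subgroup.normalizer (core L : Set G) := fun l hl =>
  mem_normalizer_of_conj fun v hv => by
    obtain ⟨w, hw, rfl⟩ := hv
    exact ⟨⟨l, hl⟩ * w * ⟨l, hl⟩⁻¹, (Cfsg.pCore_normal 2 L).conj_mem _ hw _, rfl⟩

theorem le_core {L N : Subgroup G} (hNL : N ≤ L) (hN : L ≤ Subgroup.normalizer (N : Set G))
    (h2 : IsPGroup 2 N) : N ≤ core L := by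
  intro x hx
  refine ⟨⟨x, hNL hx⟩, CfsgLib.PCore.le_pCore (N := N.subgroupOf L)
    (Subgroup.normal_subgroupOf_of_le_normalizer hN) (h2.comap_of_injective L.subtype L.subtype_injective) hx, rfl⟩

/-! ### Sylow subgroups -/

theorem IsSyl.le {L U : Subgroup G} (h : IsSyl L U) : U ≤ L := h.1

theorem IsSyl.isPGroup {L U : Subgroup G} (h : IsSyl L U) : IsPGroup 2 U := h.2.1

/-- The Sylow subgroup of `↥L` given by `U`. -/
def IsSyl.sylow {L U : Subgroup G} (h : IsSyl L U) : Sylow 2 L where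
  toSubgroup := U.subgroupOf L
  isPGroup' := h.2.1.comap_of_injective L.subtype L.subtype_injective
  is_maximal' := fun {Q} hQ hle => by
    have e := h.2.2 (Q.map L.subtype) (Subgroup.map_subtype_le _) (hQ.map _) (fun x hx => by
      exact ⟨⟨x, h.1 hx⟩, hle (show (⟨x, h.1 hx⟩ : L) ∈ U.subgroupOf L from hx), rfl⟩)
    rw [← e, Subgroup.subgroupOf]
    exact (Subgroup.comap_map_eq_self_of_injective L.subtype_injective Q).symm

theorem IsSyl.exists_conj {L U P : Subgroup G} (h : IsSyl L U) (hPL : P ≤ L) (hP : IsPGroup 2 P) :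
    ∃ l ∈ L, ∀ x ∈ P, l * x * l⁻¹ ∈ U := by
  haveI : Fact (Nat.Prime 2) := ⟨Nat.prime_two⟩
  obtain ⟨T, hT⟩ := (hP.comap_of_injective L.subtype L.subtype_injective).exists_le_sylow
  obtain ⟨g, hg⟩ := MulAction.exists_smul_eq L T h.sylow
  refine ⟨g, g.2, fun x hx => ?_⟩
  have h1 : g * ⟨x, hPL hx⟩ * g⁻¹ ∈ ((g • T : Sylow 2 L) : Subgroup L) := by
    show g * ⟨x, hPL hx⟩ * g⁻¹ ∈ MulAut.conj g • (T : Subgroup L)
    rw [Subgroup.mem_pointwise_smul_iff_inv_smul_mem]
    simpa [MulAut.smul_def, mul_assoc] using hT (show (⟨x, hPL hx⟩ : L) ∈ P.comap L.subtype from hx)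
  rw [hg] at h1
  exact h1

theorem IsSyl.card_le {L U P : Subgroup G} (h : IsSyl L U) (hPL : P ≤ L) (hP : IsPGroup 2 P) :
    Nat.card P ≤ Nat.card U := by
  obtain ⟨l, -, hl⟩ := h.exists_conj hPL hP
  rw [← card_map_conj P l]
  exact Subgroup.card_le_of_le fun y hy => by
    obtain ⟨x, hx, rfl⟩ := hy
    exact hl x hx

theorem exists_isSyl {L P : Subgroup G} (hPL : P ≤ L) (hP : IsPGroup 2 P) : ∃ U, IsSyl L U ∧ P ≤ U := by
  obtain ⟨U, ⟨hU1, hU2, hU3⟩, hmax⟩ := (Set.toFinite {U : Subgroup G | U ≤ L ∧ IsPGroup 2 U ∧ P ≤ U}).exists_maximal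
    ⟨P, hPL, hP, le_rfl⟩
  exact ⟨U, ⟨hU1, hU2, fun Q hQL hQ hUQ => le_antisymm (hmax ⟨hQL, hQ, hU3.trans hUQ⟩ hUQ) hUQ⟩, hU3⟩

theorem IsSyl.inf_normal {L U N : Subgroup G} (h : IsSyl L U) (hNL : N ≤ L)
    (hN : L ≤ Subgroup.normalizer (N : Set G)) : IsSyl N (U ⊓ N) := by
  refine ⟨inf_le_right, h.2.1.to_le inf_le_left, fun P hPN hP hle => ?_⟩
  obtain ⟨l, hl, hconj⟩ := h.exists_conj (hPN.trans hNL) hP
  refine (Subgroup.eq_of_le_of_card_ge hle ?_).symm
  rw [← card_map_conj P l]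
  refine Subgroup.card_le_of_le fun y hy => ?_
  obtain ⟨x, hx, rfl⟩ := hy
  exact ⟨hconj x hx, conj_mem (hN hl) (hPN hx)⟩

/-- The Frattini argument. -/
theorem IsSyl.frattini {L U N : Subgroup G} (h : IsSyl L U) (hNL : N ≤ L)
    (hN : L ≤ Subgroup.normalizer (N : Set G)) {l : G} (hl : l ∈ L) :
    ∃ n ∈ N, ∃ m ∈ L ⊓ Subgroup.normalizer ((U ⊓ N : Subgroup G) : Set G), l = n * m := by
  have h1 := h.inf_normal hNL hN
  obtain ⟨n, hn, hconj⟩ := h1.exists_conj (P := (U ⊓ N).map (MulAut.conj l).toMonoidHom)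
    (fun y hy => by obtain ⟨x, hx, rfl⟩ := hy; exact conj_mem (hN hl) hx.2)
    ((h.2.1.to_le inf_le_left).map _)
  refine ⟨n⁻¹, inv_mem hn, n * l, ⟨mul_mem (hNL hn) hl, mem_normalizer_of_conj fun x hx => ?_⟩, by group⟩
  have h2 := hconj (l * x * l⁻¹) ⟨x, hx, rfl⟩
  rwa [show n * (l * x * l⁻¹) * n⁻¹ = n * l * x * (n * l)⁻¹ by group] at h2

theorem core_le_syl {L U : Subgroup G} (h : IsSyl L U) : core L ≤ U := by
  obtain ⟨l, hl, hconj⟩ := h.exists_conj (core_le L) (core_isPGroup L)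
  intro x hx
  have h1 := hconj _ (conj_mem' (le_normalizer_core L hl) hx)
  rwa [show l * (l⁻¹ * x * l) * l⁻¹ = x by group] at h1

/-- Subgroups containing the core inherit the hypotheses. -/
theorem Loc.of_le {L L' : Subgroup G} (h : Loc L) (hle : L' ≤ L) (hQ : core L ≤ L') : Loc L' := by
  have hcore : core L ≤ core L' :=
    le_core hQ (hle.trans (le_normalizer_core L)) (core_isPGroup L)
  refine ⟨?_, fun g hg hc => hcore (h.char2 g (hle hg) fun q hq => hc q (hcore hq)), fun hi => h.s4free ?_⟩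
  · haveI := h.solv
    exact Group.isSolvable_of_isSolvable_injective (Subgroup.inclusion_injective hle)
  · exact involves_of_injective _ (Subgroup.inclusion_injective hle) hi

/-! ### Conjugates of a subgroup -/

/-- The subgroup generated by the `L`-conjugates of `W`. -/
def ncl (L W : Subgroup G) : Subgroup G := Subgroup.closure {y | ∃ l ∈ L, ∃ w ∈ W, l * w * l⁻¹ = y}

theorem conj_mem_ncl {L W : Subgroup G} {l w : G} (hl : l ∈ L) (hw : w ∈ W) : l * w * l⁻¹ ∈ ncl L W :=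
  Subgroup.subset_closure ⟨l, hl, w, hw, rfl⟩

theorem le_ncl (L W : Subgroup G) : W ≤ ncl L W := fun w hw => by
  simpa using conj_mem_ncl (one_mem L) hw

theorem le_normalizer_ncl (L W : Subgroup G) : L ≤ Subgroup.normalizer (ncl L W : Set G) := fun l hl => by
  refine mem_normalizer_of_conj fun v hv => ?_
  have hle : ncl L W ≤ (ncl L W).comap (MulAut.conj l).toMonoidHom := by
    refine (Subgroup.closure_le _).2 ?_
    rintro _ ⟨k, hk, w, hw, rfl⟩
    show l * (k * w * k⁻¹) * l⁻¹ ∈ ncl L W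
    rw [show l * (k * w * k⁻¹) * l⁻¹ = l * k * w * (l * k)⁻¹ by group]
    exact conj_mem_ncl (mul_mem hl hk) hw
  exact hle hv

theorem ncl_le {L W N : Subgroup G} (hW : W ≤ N) (hN : L ≤ Subgroup.normalizer (N : Set G)) : ncl L W ≤ N :=
  (Subgroup.closure_le _).2 (by rintro _ ⟨l, hl, w, hw, rfl⟩; exact conj_mem (hN hl) (hW hw))

/-! ### Squared offender bound -/

/-- Every subgroup of `U` acting as an elementary abelian group on `V` satisfies `|V / C_V(R)| ≥ |R / C_R(V)|²`. -/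
def Sq (U V : Subgroup G) : Prop :=
  V ≤ U ∧ Good 2 true V ∧ U ≤ Subgroup.normalizer (V : Set G) ∧
    ∀ R : Subgroup G, R ≤ U → (∀ r ∈ R, ∀ s ∈ R, r * s * r⁻¹ * s⁻¹ ∈ Subgroup.centralizer (V : Set G)) →
      (∀ r ∈ R, r ^ 2 ∈ Subgroup.centralizer (V : Set G)) →
      Nat.card R ^ 2 * Nat.card ↥(V ⊓ Subgroup.centralizer (R : Set G)) ≤
        Nat.card V * Nat.card ↥(R ⊓ Subgroup.centralizer (V : Set G)) ^ 2

theorem Sq.bound_of_good {U V R : Subgroup G} (h : Sq U V) (hR : R ≤ U) (hg : Good 2 true R) :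
    Nat.card R ^ 2 * Nat.card ↥(V ⊓ Subgroup.centralizer (R : Set G)) ≤
      Nat.card V * Nat.card ↥(R ⊓ Subgroup.centralizer (V : Set G)) ^ 2 :=
  h.2.2.2 R hR (fun r hr s hs => by
      rw [CfsgLib.ZJ.good_commute hg hr hs, mul_inv_cancel_right, mul_inv_cancel]; exact one_mem _)
    (fun r hr => by rw [hg.2 rfl r hr]; exact one_mem _)

theorem Sq.mono {S U V : Subgroup G} (h : Sq S V) (hVU : V ≤ U) (hUS : U ≤ S) : Sq U V :=
  ⟨hVU, h.2.1, hUS.trans h.2.2.1, fun R hR => h.2.2.2 R (hR.trans hUS)⟩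

/-- Commuting elementary abelian subgroups and the largest ones. -/
theorem card_mul_le {U A P Y : Subgroup G} (hA : A ∈ maxGood 2 true U) (hP : Good 2 true P) (hY : Good 2 true Y)
    (hPU : P ≤ U) (hYU : Y ≤ U) (hc : Y ≤ Subgroup.centralizer (P : Set G)) :
    Nat.card P * Nat.card Y ≤ Nat.card A * Nat.card ↥(P ⊓ Y) := by
  have hn : P ≤ Subgroup.normalizer (Y : Set G) := fun p hp => mem_normalizer_of_conj fun y hy => by
    rw [show p * y * p⁻¹ = y from conj_eq_iff.2 (mem_centralizer.1 (hc hy) p hp)]; exact hy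
  rw [← CfsgLib.ZJ.card_sup_mul_card_inf_of_le_normalizer hn]
  exact Nat.mul_le_mul_right _ (hA.2.2 _ (sup_le hPU hYU) (CfsgLib.ZJ.good_sup hP hY hc))

theorem Sq.le_centralizer_of_maxGood {U V A : Subgroup G} (h : Sq U V) (hA : A ∈ maxGood 2 true U) :
    A ≤ Subgroup.centralizer (V : Set G) := by
  have h1 := h.bound_of_good hA.1 hA.2.1
  have h2 := card_mul_le hA (CfsgLib.ZJ.good_mono inf_le_left hA.2.1) h.2.1
    (inf_le_left.trans hA.1) h.1 (P := A ⊓ Subgroup.centralizer (V : Set G))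
    (fun v hv => mem_centralizer.2 fun a ha => (mem_centralizer.1 ha.2 v hv).symm)
  have h3 : Nat.card ↥(A ⊓ Subgroup.centralizer (V : Set G) ⊓ V) ≤
      Nat.card ↥(V ⊓ Subgroup.centralizer (A : Set G)) :=
    Subgroup.card_le_of_le fun x hx => ⟨hx.2, mem_centralizer.2 fun a ha =>
      CfsgLib.ZJ.good_commute hA.2.1 ha hx.1.1⟩
  have hle : A ⊓ Subgroup.centralizer (V : Set G) = A := by
    refine Subgroup.eq_of_le_of_card_ge inf_le_left ?_
    set a := Nat.card A
    set b := Nat.card ↥(A ⊓ Subgroup.centralizer (V : Set G))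
    set c := Nat.card ↥(V ⊓ Subgroup.centralizer (A : Set G))
    have hc : 0 < a * c := Nat.mul_pos Nat.card_pos Nat.card_pos
    have h4 : a * c * a ≤ a * c * b := by
      calc a * c * a = a ^ 2 * c := by ring
        _ ≤ Nat.card V * b ^ 2 := h1
        _ = b * Nat.card V * b := by ring
        _ ≤ a * c * b := Nat.mul_le_mul_right _ (h2.trans (Nat.mul_le_mul_left _ h3))
    exact Nat.le_of_mul_le_mul_left h4 hc
  exact fun a ha => (hle.symm ▸ ha : a ∈ A ⊓ Subgroup.centralizer (V : Set G)).2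

theorem Sq.J_le_centralizer {U V : Subgroup G} (h : Sq U V) :
    CfsgLib.ZJ.J 2 true U ≤ Subgroup.centralizer (V : Set G) :=
  sSup_le fun _ hA => h.le_centralizer_of_maxGood hA

theorem Sq.le_maxGood {U V A : Subgroup G} (h : Sq U V) (hA : A ∈ maxGood 2 true U) : V ≤ A :=
  CfsgLib.ZJ.le_of_good_centralizing hA h.1 (h.le_centralizer_of_maxGood hA) h.2.1.2

theorem Sq.le_J {U V : Subgroup G} (h : Sq U V) : V ≤ CfsgLib.ZJ.J 2 true U := by
  obtain ⟨A, hA⟩ := CfsgLib.ZJ.maxGood_nonempty 2 true U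
  exact (h.le_maxGood hA).trans (CfsgLib.ZJ.maxGood_le_J hA)

/-- `U` acts trivially on each of its subgroups with the squared bound. -/
def EStab (U : Subgroup G) : Prop := ∀ V, Sq U V → U ≤ Subgroup.centralizer (V : Set G)

/-- The join of the subgroups with trivial squared-bound modules lying over the Thompson subgroup. -/
def X (S : Subgroup G) : Subgroup G :=
  sSup {U | CfsgLib.ZJ.J 2 true S ≤ U ∧ U ≤ S ∧ EStab U}

theorem X_le (S : Subgroup G) : X S ≤ S := sSup_le fun _ hU => hU.2.1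

theorem J_le_X (S : Subgroup G) : CfsgLib.ZJ.J 2 true S ≤ X S := by
  refine le_sSup ⟨le_rfl, CfsgLib.ZJ.J_le S, fun V hV => ?_⟩
  have h := hV.J_le_centralizer
  rwa [CfsgLib.ZJ.J_eq_of_le le_rfl (CfsgLib.ZJ.J_le S)] at h

theorem Sq.X_le_centralizer {S V : Subgroup G} (h : Sq S V) : X S ≤ Subgroup.centralizer (V : Set G) :=
  sSup_le fun _ hU => hU.2.2 V (h.mono (h.le_J.trans hU.1) hU.2.1)

theorem X_eq_of_le {S T : Subgroup G} (h : X S ≤ T) (hTS : T ≤ S) : X T = X S := by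
  have hJ : CfsgLib.ZJ.J 2 true T = CfsgLib.ZJ.J 2 true S :=
    CfsgLib.ZJ.J_eq_of_le ((J_le_X S).trans h) hTS
  refine le_antisymm (sSup_le fun U hU => le_sSup ⟨hJ ▸ hU.1, hU.2.1.trans hTS, hU.2.2⟩)
    (sSup_le fun U hU => le_sSup ⟨hJ.symm ▸ hU.1, ?_, hU.2.2⟩)
  exact (le_sSup hU : U ≤ X S).trans h

theorem X_eq_self {U : Subgroup G} (h : EStab U) : X U = U :=
  le_antisymm (X_le U) (le_sSup ⟨CfsgLib.ZJ.J_le U, le_rfl, h⟩)

/-- `Ω₁(Z(U))`. -/
def Om (U : Subgroup G) : Subgroup G where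
  carrier := {x | x ∈ U ∧ (∀ u ∈ U, u * x = x * u) ∧ x ^ 2 = 1}
  one_mem' := ⟨one_mem _, fun u _ => by simp, one_pow _⟩
  mul_mem' {a b} ha hb := ⟨mul_mem ha.1 hb.1, fun u hu => by
      rw [← mul_assoc, ha.2.1 u hu, mul_assoc, hb.2.1 u hu, mul_assoc],
    by rw [(show Commute a b from hb.2.1 a ha.1).mul_pow, ha.2.2, hb.2.2, one_mul]⟩
  inv_mem' {a} ha := ⟨inv_mem ha.1, fun u hu => ((show Commute u a from ha.2.1 u hu).inv_right).eq,
    by rw [inv_pow, ha.2.2, inv_one]⟩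

theorem Om_le (U : Subgroup G) : Om U ≤ U := fun _ hx => hx.1

theorem good_Om (U : Subgroup G) : Good 2 true (Om U) :=
  ⟨⟨⟨fun a b => Subtype.ext (b.2.2.1 a a.2.1)⟩⟩, fun _ _ ha => ha.2.2⟩

theorem Om_le_maxGood {U A : Subgroup G} (hA : A ∈ maxGood 2 true U) : Om U ≤ A := fun _ hx =>
  CfsgLib.ZJ.mem_of_maxGood hA hx.1 (fun a ha => hx.2.1 a (hA.1 ha)) fun _ => hx.2.2

theorem Om_le_J (U : Subgroup G) : Om U ≤ CfsgLib.ZJ.J 2 true U := by
  obtain ⟨A, hA⟩ := CfsgLib.ZJ.maxGood_nonempty 2 true U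
  exact (Om_le_maxGood hA).trans (CfsgLib.ZJ.maxGood_le_J hA)

theorem Om_le_Om_X (S : Subgroup G) : Om S ≤ Om (X S) := fun _ hx =>
  ⟨J_le_X S (Om_le_J S hx), fun u hu => hx.2.1 u (X_le S hu), hx.2.2⟩

theorem Om_ne_bot {S : Subgroup G} (hS : IsPGroup 2 S) (hne : S ≠ ⊥) : Om S ≠ ⊥ := by
  haveI : Fact (Nat.Prime 2) := ⟨Nat.prime_two⟩
  haveI : Nontrivial S := (Subgroup.nontrivial_iff_ne_bot S).2 hne
  haveI := hS.center_nontrivial
  obtain ⟨x, hxS, hx2, hx1⟩ := CfsgLib.ZJ.exists_pow_prime (p := 2)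
    (S := (Subgroup.center S).map S.subtype) ((hS.to_subgroup _).map _) (fun e => by
      exact (Subgroup.nontrivial_iff_ne_bot (Subgroup.center S)).1 inferInstance
        ((Subgroup.map_eq_bot_iff_of_injective _ S.subtype_injective).1 e))
  obtain ⟨y, hy, rfl⟩ := hxS
  intro e
  have : (y : G) ∈ Om S := ⟨y.2, fun u hu =>
    congrArg Subtype.val (Subgroup.mem_center_iff.1 hy ⟨u, hu⟩), hx2⟩
  rw [e, Subgroup.mem_bot] at this
  exact hx1 this

theorem normalizer_le_normalizer_Om (U : Subgroup G) :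
    Subgroup.normalizer (U : Set G) ≤ Subgroup.normalizer (Om U : Set G) := fun g hg =>
  mem_normalizer_of_conj fun x hx => ⟨conj_mem hg hx.1, fun u hu => by
      have := congrArg (fun y => g * y * g⁻¹) (hx.2.1 _ (conj_mem' hg hu))
      simpa [mul_assoc] using this,
    by rw [conj_pow, hx.2.2, mul_one, mul_inv_cancel]⟩

theorem Sq.map_conj {U V : Subgroup G} (h : Sq U V) (g : G) :
    Sq (U.map (MulAut.conj g).toMonoidHom) (V.map (MulAut.conj g).toMonoidHom) := by
  set f := (MulAut.conj g).toMonoidHom with hf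
  have hinj : Function.Injective f := (MulAut.conj g).injective
  have hcm : ∀ R K : Subgroup G, (R ⊓ Subgroup.centralizer (K : Set G)).map f =
      R.map f ⊓ Subgroup.centralizer ((K.map f : Subgroup G) : Set G) := by
    intro R K
    ext y
    constructor
    · rintro ⟨x, hx, rfl⟩
      refine ⟨⟨x, hx.1, rfl⟩, mem_centralizer.2 ?_⟩
      rintro _ ⟨k, hk, rfl⟩
      rw [← map_mul, ← map_mul, mem_centralizer.1 hx.2 k hk]
    · rintro ⟨⟨x, hx, rfl⟩, hc⟩
      refine ⟨x, ⟨hx, mem_centralizer.2 fun k hk => hinj ?_⟩, rfl⟩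
      rw [map_mul, map_mul]
      exact mem_centralizer.1 hc _ ⟨k, hk, rfl⟩
  have hmem : ∀ {x : G} {K : Subgroup G}, x ∈ Subgroup.centralizer ((K.map f : Subgroup G) : Set G) ↔
      g⁻¹ * x * g ∈ Subgroup.centralizer (K : Set G) := by
    intro x K
    rw [mem_centralizer, mem_centralizer]
    constructor
    · intro h k hk
      have := h _ ⟨k, hk, rfl⟩
      have e := congrArg (fun y => g⁻¹ * y * g) this
      simpa [hf, mul_assoc] using e
    · rintro h _ ⟨k, hk, rfl⟩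
      have e := congrArg (fun y => g * y * g⁻¹) (h k hk)
      simpa [hf, mul_assoc] using e
  refine ⟨Subgroup.map_mono h.1, CfsgLib.ZJ.good_map f h.2.1, ?_, fun R hR hc hs => ?_⟩
  · rintro _ ⟨u, hu, rfl⟩
    refine mem_normalizer_of_conj ?_
    rintro _ ⟨v, hv, rfl⟩
    exact ⟨u * v * u⁻¹, conj_mem (h.2.2.1 hu) hv, by simp⟩
  obtain ⟨R', hR', rfl⟩ := CfsgLib.ZJ.exists_map_eq f hR
  have h1 := h.2.2.2 R' hR' (fun r hr s hs' => by
      have := hmem.1 (hc _ ⟨r, hr, rfl⟩ _ ⟨s, hs', rfl⟩)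
      simpa [hf, mul_assoc] using this) (fun r hr => by
      have := hmem.1 (hs _ ⟨r, hr, rfl⟩)
      simpa [hf, pow_two, mul_assoc] using this)
  rw [← hcm, ← hcm]
  simp only [Subgroup.card_map_of_injective hinj]
  exact h1

theorem EStab.map_conj {U : Subgroup G} (h : EStab U) (g : G) : EStab (U.map (MulAut.conj g).toMonoidHom) := by
  intro V hV
  have hid : ∀ K : Subgroup G, (K.map (MulAut.conj g).toMonoidHom).map (MulAut.conj g⁻¹).toMonoidHom = K := by
    intro K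
    ext x
    rw [mem_map_conj, mem_map_conj]
    simp [mul_assoc]
  have h1 := hV.map_conj g⁻¹
  rw [hid] at h1
  have h2 := h _ h1
  rintro _ ⟨u, hu, rfl⟩
  refine mem_centralizer.2 fun v hv => ?_
  have h3 := mem_centralizer.1 (h2 hu) (g⁻¹ * v * g) ⟨v, hv, by simp⟩
  have e := congrArg (fun y => g * y * g⁻¹) h3
  simpa [mul_assoc] using e

theorem normalizer_le_normalizer_X (S : Subgroup G) :
    Subgroup.normalizer (S : Set G) ≤ Subgroup.normalizer (X S : Set G) := fun g hg => by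
  have hJ := CfsgLib.ZJ.normalizer_le_normalizer_J (p := 2) (el := true) S hg
  have hle : (X S).map (MulAut.conj g).toMonoidHom ≤ X S := by
    rw [X, Subgroup.map_le_iff_le_comap]
    refine sSup_le fun U hU => Subgroup.map_le_iff_le_comap.1 (le_sSup ⟨?_, ?_, hU.2.2.map_conj g⟩)
    · exact fun x hx => mem_map_conj.2 (hU.1 (conj_mem' hJ hx))
    · rintro _ ⟨u, hu, rfl⟩
      exact conj_mem hg (hU.2.1 hu)
  exact mem_normalizer_of_conj fun v hv => hle ⟨v, hv, rfl⟩

end CfsgLib.SolvFactor
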