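import Cfsg.Agent.SolvFactor.Commuting

/-!
An element of odd order inverted by a member of the Thompson subgroup centralizes every module with the
squared bound.
-/

set_option autoImplicit false
set_option linter.unusedSectionVars false
set_option linter.style.haveILetI false

namespace CfsgLib.SolvFactor

open CfsgLib.ZJ (Good maxGood)

variable {G : Type*} [Group G] [Finite G]

theorem prod_range_shift {M : Type*} [CommMonoid M] (f : ℕ → M) {p : ℕ} (hf : ∀ i, f (i + p) = f i) (j : ℕ) :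
    ∏ i ∈ Finset.range p, f (i + j) = ∏ i ∈ Finset.range p, f i := by
  induction j with
  | zero => rfl
  | succ j ih =>
    rw [← ih]
    have h1 := Finset.prod_range_succ' (fun i => f (i + j)) p
    have h2 := Finset.prod_range_succ (fun i => f (i + j)) p
    rw [h2, show f (p + j) = f (0 + j) by rw [zero_add, Nat.add_comm p j, hf]] at h1
    by_cases hp : p = 0
    · simp [hp]
    obtain ⟨q, rfl⟩ := Nat.exists_eq_succ_of_ne_zero hp
    rw [Finset.prod_range_succ (fun i => f (i + (j + 1))), Finset.prod_range_succ' (fun i => f (i + j))]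
    rw [show f (q + (j + 1)) = f (0 + j) by rw [zero_add, ← hf j]; congr 1; omega]
    exact congrArg (· * f (0 + j)) (Finset.prod_congr rfl fun i _ => by rw [show i + (j + 1) = i + 1 + j by omega])

theorem prod_range_pairing {M : Type*} [CommMonoid M] (f : ℕ → M) {p : ℕ} (hp : Odd p)
    (hf : ∀ i, 0 < i → i < p → f (p - i) = f i) (h2 : ∀ i, f i * f i = 1) :
    ∏ i ∈ Finset.range p, f i = f 0 := by
  have hp0 : 0 ∈ Finset.range p := Finset.mem_range.2 hp.pos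
  rw [← Finset.mul_prod_erase _ _ hp0]
  have h : ∏ i ∈ (Finset.range p).erase 0, f i = 1 := by
    refine Finset.prod_involution (fun i _ => p - i) ?_ ?_ ?_ ?_
    · intro i hi
      simp only [Finset.mem_erase, Finset.mem_range] at hi
      rw [hf i (by omega) hi.2, h2]
    · intro i hi _ e
      obtain ⟨m, rfl⟩ := hp
      omega
    · intro i hi
      simp only [Finset.mem_erase, Finset.mem_range] at hi ⊢
      omega
    · intro i hi
      simp only [Finset.mem_erase, Finset.mem_range] at hi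
      omega
  rw [h, mul_one]

/-- The case of prime order modulo the centralizer. -/
theorem false_of_prime {L U V A A₁ : Subgroup G} (hL : Loc L) (hU : IsSyl L U) (h : Sq U V)
    (hA : A ∈ maxGood 2 true U) (hA₁ : A₁ ≤ A) (hc : Nat.card A ≤ 2 * Nat.card A₁) {a x : G} (ha : a ∈ A)
    (hxL : x ∈ L) (hxo : Odd (orderOf x)) (hinv : a * x * a⁻¹ = x⁻¹)
    (hconj : ∀ b ∈ A₁, ∀ g ∈ Subgroup.zpowers x, g * b * g⁻¹ ∈ U) {p : ℕ} (hp : p.Prime) (hpo : Odd p)
    (hx : x ∉ Subgroup.centralizer (V : Set G)) (hxp : x ^ p ∈ Subgroup.centralizer (V : Set G)) : False := by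
  classical
  haveI : Fact (Nat.Prime 2) := ⟨Nat.prime_two⟩
  have hVg := h.2.1
  have hAV := h.le_centralizer_of_maxGood hA
  have hVA := h.le_maxGood hA
  have hAc : ∀ b ∈ A, ∀ b' ∈ A, b * b' = b' * b := fun b hb b' hb' => CfsgLib.ZJ.good_commute hA.2.1 hb hb'
  have ha2 : a * a = 1 := by rw [← pow_two]; exact hA.2.1.2 rfl a ha
  have hai : a⁻¹ = a := inv_eq_of_mul_eq_one_right ha2
  have haL : a ∈ L := hU.le (hA.1 ha)
  have hinvp : ∀ i : ℕ, a * x ^ i * a⁻¹ = (x ^ i)⁻¹ := fun i => by rw [← conj_pow, hinv, inv_pow]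
  have hav : ∀ v ∈ V, a * v * a⁻¹ = v := fun v hv => mem_centralizer_conj.1 (hAV ha) v hv
  -- periodicity
  have hper : ∀ (i : ℕ), ∀ v ∈ V, x ^ (i + p) * v * (x ^ (i + p))⁻¹ = x ^ i * v * (x ^ i)⁻¹ := fun i v hv => by
    rw [pow_add, show x ^ i * x ^ p * v * (x ^ i * x ^ p)⁻¹ = x ^ i * (x ^ p * v * (x ^ p)⁻¹) * (x ^ i)⁻¹ by group,
      mem_centralizer_conj.1 hxp v hv]
  -- the fixed points of `x`
  set C := V ⊓ Subgroup.centralizer ({x} : Set G) with hC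
  have hCmem : ∀ v, v ∈ C ↔ v ∈ V ∧ x * v * x⁻¹ = v := fun v => by
    rw [hC, Subgroup.mem_inf, mem_centralizer_singleton']
  have hCpow : ∀ v ∈ C, ∀ i : ℕ, x ^ i * v * (x ^ i)⁻¹ = v := fun v hv i =>
    mem_centralizer_singleton.1 (pow_mem (mem_centralizer_singleton.2 ((hCmem v).1 hv).2) i)
  have hfixx : ∀ j : ℕ, ¬ p ∣ j → ∀ z ∈ V, x ^ j * z * (x ^ j)⁻¹ = z → z ∈ C := by
    intro j hj z hz hfix
    refine (hCmem z).2 ⟨hz, ?_⟩
    rw [← mem_centralizer_singleton]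
    obtain ⟨u, w, huw⟩ := (Nat.isCoprime_iff_coprime.2 ((hp.coprime_iff_not_dvd.2 hj).symm))
    have : x = (x ^ j) ^ u * (x ^ p) ^ w := by
      rw [← zpow_natCast x j, ← zpow_natCast x p, ← zpow_mul, ← zpow_mul, ← zpow_add, mul_comm (j : ℤ),
        mul_comm (p : ℤ), huw, zpow_one]
    rw [this]
    exact mul_mem (Subgroup.zpow_mem _ (mem_centralizer_singleton.2 hfix) u)
      (Subgroup.zpow_mem _ (mem_centralizer_singleton.2 (mem_centralizer_conj.1 hxp z hz)) w)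
  -- the module spanned by the conjugates
  set N := ncl (Subgroup.zpowers x) V with hN
  have hxzL : Subgroup.zpowers x ≤ L := Subgroup.zpowers_le.2 hxL
  have hNg : Good 2 true N := by
    refine CfsgLib.ZJ.good_closure ?_ ?_
    · rintro _ ⟨g, hg, v, hv, rfl⟩ _ ⟨g', hg', w, hw, rfl⟩
      have h1 := commute_conj hL hU h (mul_mem (inv_mem (hxzL hg)) (hxzL hg')) hv hw
      have h2 := congrArg (fun z => g * z * g⁻¹) h1
      simpa [mul_assoc] using h2
    · rintro - _ ⟨g, hg, v, hv, rfl⟩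
      rw [conj_pow, hVg.2 rfl v hv, mul_one, mul_inv_cancel]
  have hNQ : N ≤ core L := ncl_le (le_core_of_sq hL hU h) (hxzL.trans (le_normalizer_core L))
  have hNU : N ≤ U := hNQ.trans (core_le_syl hU)
  have hxN : x ∈ Subgroup.normalizer (N : Set G) := le_normalizer_ncl _ V (Subgroup.mem_zpowers x)
  have hVN : V ≤ N := le_ncl _ V
  have hgen : ∀ {P : Subgroup G}, (∀ v ∈ V, ∀ i : ℕ, x ^ i * v * (x ^ i)⁻¹ ∈ P) → N ≤ P := fun {P} hP => by
    refine (Subgroup.closure_le _).2 ?_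
    rintro _ ⟨g, hg, v, hv, rfl⟩
    obtain ⟨i, rfl⟩ := (isOfFinOrder_of_finite x).mem_powers_iff_mem_zpowers.2 hg
    exact hP v hv i
  have haN : a ∈ Subgroup.normalizer (N : Set G) := by
    refine mem_normalizer_of_conj fun z hz => ?_
    have h1 : N ≤ N.comap (MulAut.conj a).toMonoidHom := hgen fun v hv i => by
      show a * (x ^ i * v * (x ^ i)⁻¹) * a⁻¹ ∈ N
      rw [show a * (x ^ i * v * (x ^ i)⁻¹) * a⁻¹ = (a * x ^ i * a⁻¹) * (a * v * a⁻¹) * (a * x ^ i * a⁻¹)⁻¹ by group,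
        hinvp i, hav v hv]
      exact conj_mem_ncl (inv_mem (Subgroup.pow_mem _ (Subgroup.mem_zpowers x) i)) hv
    exact h1 hz
  have hxpN : x ^ p ∈ Subgroup.centralizer (N : Set G) := by
    refine mem_centralizer_conj.2 fun z hz => ?_
    have h1 : N ≤ Subgroup.centralizer ({x ^ p} : Set G) := hgen fun v hv i => by
      rw [mem_centralizer_singleton']
      calc x ^ p * (x ^ i * v * (x ^ i)⁻¹) * (x ^ p)⁻¹ = x ^ (i + p) * v * (x ^ (i + p))⁻¹ := by
            rw [pow_add, (Commute.pow_pow (Commute.refl x) i p).eq]; group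
        _ = _ := hper i v hv
    exact mem_centralizer_singleton'.1 (h1 hz)
  have hxNc : x ∉ Subgroup.centralizer (N : Set G) := fun hh => hx (Subgroup.centralizer_le hVN hh)
  have haxa : a * x * a⁻¹ * x ∈ Subgroup.centralizer (N : Set G) := by
    rw [hinv, inv_mul_cancel]; exact one_mem _
  have hp5 : p ≠ 3 := fun e => false_of_three hL.s4free (hNQ.trans (core_le L)) hNg hxL haL hxN haN
    ⟨1, by rw [pow_one, pow_two, ha2]⟩ (e ▸ hxpN) hxNc haxa
  have hdvd : ∀ {k j : ℕ}, ¬ p ∣ j → k = 2 ∨ k = 3 → ¬ p ∣ k * j := by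
    intro k j hj hk hd
    rcases (Nat.Prime.dvd_mul hp).1 hd with h' | h'
    · rcases hk with rfl | rfl
      · obtain ⟨m, rfl⟩ := hpo
        have := Nat.le_of_dvd (by norm_num) h'
        have := hp.two_le
        omega
      · exact hp5 ((Nat.prime_dvd_prime_iff_eq hp Nat.prime_three).1 h')
    · exact hj h'
  -- a nontrivial conjugate action
  obtain ⟨j, b, hb, hbj⟩ : ∃ j : ℕ, ∃ b ∈ A₁, (x ^ j)⁻¹ * b * x ^ j ∉ Subgroup.centralizer (V : Set G) := by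
    by_contra hno
    push Not at hno
    have hAN : N ≤ Subgroup.centralizer (A₁ : Set G) := hgen fun v hv i => mem_centralizer.2 fun b hb => by
      have h1 := mem_centralizer_conj.1 (hno i b hb) v hv
      have h2 := congrArg (fun z => x ^ i * z * (x ^ i)⁻¹) h1
      rw [← conj_eq_iff]
      simpa [mul_assoc] using h2
    have hA₁g : Good 2 true A₁ := CfsgLib.ZJ.good_mono hA₁ hA.2.1
    have h1 := card_mul_le hA hA₁g hNg (hA₁.trans hA.1) hNU hAN
    have h2 : Nat.card ↥(A₁ ⊓ N) ≤ Nat.card ↥(N ⊓ Subgroup.centralizer ({a} : Set G)) :=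
      Subgroup.card_le_of_le fun z hz => ⟨hz.2, Subgroup.mem_centralizer_singleton_iff.2
        (hAc z (hA₁ hz.1) a ha)⟩
    have h3 : Nat.card N ≤ 2 * Nat.card ↥(N ⊓ Subgroup.centralizer ({a} : Set G)) := by
      refine Nat.le_of_mul_le_mul_left (c := Nat.card A₁) ?_ Nat.card_pos
      calc Nat.card A₁ * Nat.card N ≤ Nat.card A * Nat.card ↥(A₁ ⊓ N) := h1
        _ ≤ 2 * Nat.card A₁ * Nat.card ↥(N ⊓ Subgroup.centralizer ({a} : Set G)) := Nat.mul_le_mul hc h2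
        _ = _ := by ring
    have h4 := four hL.s4free (hNQ.trans (core_le L)) hNg hxL haL hxN haN hpo hxpN
      ⟨1, by rw [pow_one, pow_two, ha2]⟩ haxa hxNc
    have : 0 < Nat.card ↥(N ⊓ Subgroup.centralizer ({a} : Set G)) := Nat.card_pos
    omega
  -- the two facts about a nontrivial conjugate
  have hkey : ∀ (i : ℕ), ∀ b ∈ A₁, (x ^ i)⁻¹ * b * x ^ i ∉ Subgroup.centralizer (V : Set G) →
      Nat.card V = 4 * Nat.card C ∧
        ∀ v ∈ V, (x ^ i)⁻¹ * b * x ^ i * v * ((x ^ i)⁻¹ * b * x ^ i)⁻¹ = v → v ∈ C := by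
    intro i b hb hbi
    set f := (MulAut.conj (x ^ i)⁻¹).toMonoidHom with hf
    set R := A₁.map f with hR
    set b₀ := (x ^ i)⁻¹ * b * x ^ i with hb₀
    have hb₀R : b₀ ∈ R := ⟨b, hb, by simp [hf, hb₀, -map_inv, -map_pow]⟩
    have hRU : R ≤ U := by
      rintro _ ⟨z, hz, rfl⟩
      simpa [hf, -map_inv, -map_pow] using hconj z hz _ (inv_mem (Subgroup.pow_mem _ (Subgroup.mem_zpowers x) i))
    have hRg : Good 2 true R := CfsgLib.ZJ.good_map f (CfsgLib.ZJ.good_mono hA₁ hA.2.1)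
    have hi : ¬ p ∣ i := by
      rintro ⟨m, rfl⟩
      refine hbi ?_
      rw [hb₀, pow_mul]
      exact mul_mem (mul_mem (inv_mem (pow_mem hxp m)) (hAV (hA₁ hb))) (pow_mem hxp m)
    have hCR : C ≤ V ⊓ Subgroup.centralizer (R : Set G) := by
      refine le_inf inf_le_left fun v hv => mem_centralizer.2 ?_
      rintro _ ⟨z, hz, rfl⟩
      rw [← conj_eq_iff]
      show (x ^ i)⁻¹ * z * (x ^ i)⁻¹⁻¹ * v * ((x ^ i)⁻¹ * z * (x ^ i)⁻¹⁻¹)⁻¹ = v
      calc _ = (x ^ i)⁻¹ * (z * (x ^ i * v * (x ^ i)⁻¹) * z⁻¹) * x ^ i := by group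
        _ = (x ^ i)⁻¹ * (z * v * z⁻¹) * x ^ i := by rw [hCpow v hv i]
        _ = (x ^ i)⁻¹ * (x ^ i * v * (x ^ i)⁻¹) * x ^ i := by
          rw [mem_centralizer_conj.1 (hAV (hA₁ hz)) v ((hCmem v).1 hv).1, hCpow v hv i]
        _ = v := by group
    have hVR : R ⊓ Subgroup.centralizer (V : Set G) ⊓ V ≤ C := by
      rintro z ⟨⟨⟨w, hw, rfl⟩, -⟩, hzV⟩
      set z := f w with hz
      have h1 := hav z hzV
      have h2 : (x ^ i)⁻¹ * a * x ^ i * z * ((x ^ i)⁻¹ * a * x ^ i)⁻¹ = z := by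
        have e : a * w * a⁻¹ = w := conj_eq_iff.2 (hAc a ha w (hA₁ hw))
        simp only [hz, hf]
        show (x ^ i)⁻¹ * a * x ^ i * ((x ^ i)⁻¹ * w * (x ^ i)⁻¹⁻¹) * ((x ^ i)⁻¹ * a * x ^ i)⁻¹ = _
        calc _ = (x ^ i)⁻¹ * (a * w * a⁻¹) * x ^ i := by group
          _ = _ := by rw [e]; show _ = (x ^ i)⁻¹ * w * (x ^ i)⁻¹⁻¹; group
      have e2 : (x ^ i)⁻¹ * a * x ^ i * a = ((x ^ i) ^ 2)⁻¹ := by
        calc (x ^ i)⁻¹ * a * x ^ i * a = (x ^ i)⁻¹ * (a * x ^ i * a⁻¹) * (a * a) := by group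
          _ = _ := by rw [hinvp, ha2]; group
      refine hfixx _ hi z hzV ?_
      rw [← mem_centralizer_singleton] at h1 h2 ⊢
      refine mem_of_sq_of_odd hxo ?_ ?_
      · rw [← inv_inv ((x ^ i) ^ 2), ← e2]
        exact inv_mem (mul_mem h2 h1)
      · rw [← pow_mul, mul_comm, pow_mul, pow_orderOf_eq_one, one_pow]; exact one_mem _
    have h1 := h.bound_of_good hRU hRg
    have h2 := card_mul_le hA (CfsgLib.ZJ.good_mono inf_le_left hRg) hVg
      (inf_le_left.trans hRU) h.1 (P := R ⊓ Subgroup.centralizer (V : Set G))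
      (fun v hv => mem_centralizer.2 fun z hz => (mem_centralizer.1 hz.2 v hv).symm)
    set m := Nat.card A₁ with hm
    have hRm : Nat.card R = m := card_map_conj _ _
    rw [hRm] at h1
    set c := Nat.card ↥(V ⊓ Subgroup.centralizer (R : Set G)) with hcdef
    set c' := Nat.card ↥(R ⊓ Subgroup.centralizer (V : Set G)) with hc'
    set d := Nat.card ↥(R ⊓ Subgroup.centralizer (V : Set G) ⊓ V) with hd
    have hdC : d ≤ Nat.card C := Subgroup.card_le_of_le hVR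
    have hCc : Nat.card C ≤ c := Subgroup.card_le_of_le hCR
    have hne : R ⊓ Subgroup.centralizer (V : Set G) ≠ R := fun e => hbi (e.ge hb₀R).2
    have hc'2 : 2 * c' ≤ m := hRm ▸ two_mul_card_le (good_isPGroup hRg) inf_le_left hne
    have h2' : c' * Nat.card V ≤ 2 * m * d := h2.trans (Nat.mul_le_mul_right _ hc)
    have hm2c : m ≤ 2 * c' := by
      refine Nat.le_of_mul_le_mul_left (c := m * c) ?_ (Nat.mul_pos Nat.card_pos Nat.card_pos)
      calc m * c * m = m ^ 2 * c := by ring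
        _ ≤ Nat.card V * c' ^ 2 := h1
        _ = c' * Nat.card V * c' := by ring
        _ ≤ 2 * m * c * c' := Nat.mul_le_mul_right _ (h2'.trans (Nat.mul_le_mul_left _ (hdC.trans hCc)))
        _ = _ := by ring
    have hmc : m = 2 * c' := le_antisymm hm2c hc'2
    have hc0 : 0 < c' := Nat.card_pos
    have h4c : 4 * c ≤ Nat.card V := by
      refine Nat.le_of_mul_le_mul_right ?_ (pow_pos hc0 2)
      calc 4 * c * c' ^ 2 = m ^ 2 * c := by rw [hmc]; ring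
        _ ≤ _ := h1
    have hV4 : Nat.card V ≤ 4 * d := by
      refine Nat.le_of_mul_le_mul_left ?_ hc0
      calc c' * Nat.card V ≤ 2 * m * d := h2'
        _ = _ := by rw [hmc]; ring
    refine ⟨by omega, fun v hv hfix => ?_⟩
    have heq : C = V ⊓ Subgroup.centralizer (R : Set G) :=
      Subgroup.eq_of_le_of_card_ge hCR (by omega)
    rw [heq]
    refine ⟨hv, mem_centralizer.2 fun z hz => ?_⟩
    rw [← conj_eq_iff]
    by_cases hzC : z ∈ Subgroup.centralizer (V : Set G)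
    · exact mem_centralizer_conj.1 hzC v hv
    have h3 := mul_mem_of_card_le_two inf_le_left (by rw [hRm]; exact hm2c) hb₀R (fun e => hbi e.2) hz
      (fun e => hzC e.2)
    calc z * v * z⁻¹ = b₀ * ((b₀⁻¹ * z) * v * (b₀⁻¹ * z)⁻¹) * b₀⁻¹ := by group
      _ = v := by rw [mem_centralizer_conj.1 h3.2 v hv, hfix]
  -- all conjugates stabilize `C ≤ V`
  have hV4 := (hkey j b hb hbj).1
  have hj : ¬ p ∣ j := by
    rintro ⟨m, rfl⟩
    refine hbj ?_
    rw [pow_mul]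
    exact mul_mem (mul_mem (inv_mem (pow_mem hxp m)) (hAV (hA₁ hb))) (pow_mem hxp m)
  let Γ : Subgroup G :=
    { carrier := {u | u ∈ U ∧ (∀ c ∈ C, u * c * u⁻¹ = c) ∧ ∀ v ∈ V, u * v * u⁻¹ * v⁻¹ ∈ C}
      one_mem' := ⟨one_mem _, fun c _ => by simp, fun v _ => by simp⟩
      mul_mem' := fun {s t} hs ht => ⟨mul_mem hs.1 ht.1,
        fun c hc => by rw [show s * t * c * (s * t)⁻¹ = s * (t * c * t⁻¹) * s⁻¹ by group, ht.2.1 c hc, hs.2.1 c hc],
        fun v hv => by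
          have h1 := C.mul_mem (ht.2.2 v hv) (hs.2.2 v hv)
          have e : s * t * v * (s * t)⁻¹ * v⁻¹ = (s * (t * v * t⁻¹ * v⁻¹) * s⁻¹) * (s * v * s⁻¹ * v⁻¹) := by group
          rw [e, hs.2.1 _ (ht.2.2 v hv)]
          exact h1⟩
      inv_mem' := fun {s} hs => ⟨inv_mem hs.1,
        fun c hc => by
          conv_lhs => rw [← hs.2.1 c hc]
          group,
        fun v hv => by
          have h1 := C.inv_mem (hs.2.2 v hv)
          have h2 : s⁻¹ * (s * v * s⁻¹ * v⁻¹)⁻¹ * s⁻¹⁻¹ = (s * v * s⁻¹ * v⁻¹)⁻¹ := by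
            conv_lhs => rw [← hs.2.1 _ h1]
            group
          have e : s⁻¹ * v * s⁻¹⁻¹ * v⁻¹ = s⁻¹ * (s * v * s⁻¹ * v⁻¹)⁻¹ * s⁻¹⁻¹ := by group
          rw [e, h2]
          exact h1⟩ }
  have hΓmem : ∀ (i : ℕ), ∀ z ∈ A₁, (x ^ i)⁻¹ * z * x ^ i ∈ Γ := by
    intro i z hz
    have hzU : (x ^ i)⁻¹ * z * x ^ i ∈ U := by
      simpa using hconj z hz _ (inv_mem (Subgroup.pow_mem _ (Subgroup.mem_zpowers x) i))
    refine ⟨hzU, fun c hc => ?_, fun v hv => ?_⟩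
    · calc (x ^ i)⁻¹ * z * x ^ i * c * ((x ^ i)⁻¹ * z * x ^ i)⁻¹
          = (x ^ i)⁻¹ * (z * (x ^ i * c * (x ^ i)⁻¹) * z⁻¹) * x ^ i := by group
        _ = (x ^ i)⁻¹ * (x ^ i * c * (x ^ i)⁻¹) * x ^ i := by
          rw [hCpow c hc i, mem_centralizer_conj.1 (hAV (hA₁ hz)) c ((hCmem c).1 hc).1]
        _ = c := by group
    · by_cases hzi : (x ^ i)⁻¹ * z * x ^ i ∈ Subgroup.centralizer (V : Set G)
      · rw [mem_centralizer_conj.1 hzi v hv, mul_inv_cancel]; exact one_mem _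
      set t := (x ^ i)⁻¹ * z * x ^ i with ht
      have ht2 : t * t = 1 := by
        rw [ht, show (x ^ i)⁻¹ * z * x ^ i * ((x ^ i)⁻¹ * z * x ^ i) = (x ^ i)⁻¹ * z ^ 2 * x ^ i by
          rw [pow_two]; group, hA.2.1.2 rfl z (hA₁ hz)]
        group
      have htv : t * v * t⁻¹ ∈ V := conj_mem (h.2.2.1 hzU) hv
      refine (hkey i z hz hzi).2 _ (mul_mem htv (inv_mem hv)) ?_
      have hi : ∀ u ∈ V, u⁻¹ = u := fun u hu =>
        inv_eq_of_mul_eq_one_right (by rw [← pow_two]; exact hVg.2 rfl u hu)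
      calc t * (t * v * t⁻¹ * v⁻¹) * t⁻¹ = (t * t) * v * (t * t)⁻¹ * (t * v * t⁻¹)⁻¹ := by group
        _ = v * (t * v * t⁻¹) := by rw [ht2, hi _ htv]; group
        _ = t * v * t⁻¹ * v⁻¹ := by rw [CfsgLib.ZJ.good_commute hVg hv htv, hi v hv]
  have hΓact : ∀ s ∈ Γ, ∀ v ∈ V, ∀ t ∈ Γ, s * t * s⁻¹ * t⁻¹ ∈ Subgroup.centralizer ({v} : Set G) := by
    intro s hs v hv t ht
    rw [mem_centralizer_singleton]
    have key : ∀ s ∈ Γ, ∀ t ∈ Γ, s * t * v * (s * t)⁻¹ = (t * v * t⁻¹ * v⁻¹) * (s * v * s⁻¹ * v⁻¹) * v := by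
      intro s hs t ht
      calc s * t * v * (s * t)⁻¹ = (s * (t * v * t⁻¹ * v⁻¹) * s⁻¹) * (s * v * s⁻¹) := by group
        _ = _ := by rw [hs.2.1 _ (ht.2.2 v hv)]; group
    have h1 : s * t * v * (s * t)⁻¹ = t * s * v * (t * s)⁻¹ := by
      rw [key s hs t ht, key t ht s hs,
        CfsgLib.ZJ.good_commute hVg ((hCmem _).1 (ht.2.2 v hv)).1 ((hCmem _).1 (hs.2.2 v hv)).1]
    have h2 : (s * t)⁻¹ * (t * s) * v * ((s * t)⁻¹ * (t * s))⁻¹ = v := by
      calc _ = (s * t)⁻¹ * (t * s * v * (t * s)⁻¹) * (s * t) := by group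
        _ = v := by rw [← h1]; group
    calc s * t * s⁻¹ * t⁻¹ * v * (s * t * s⁻¹ * t⁻¹)⁻¹
        = (t * s) * ((t * s)⁻¹ * (s * t)) * ((t * s)⁻¹ * v * (t * s)) * ((t * s)⁻¹ * (s * t))⁻¹ * (t * s)⁻¹ := by group
      _ = v := by
        have hw : (t * s)⁻¹ * v * (t * s) ∈ V := by
          simpa using conj_mem (inv_mem (mul_mem (h.2.2.1 ht.1) (h.2.2.1 hs.1))) hv
        have h3 : ∀ u ∈ V, (t * s)⁻¹ * (s * t) * u * ((t * s)⁻¹ * (s * t))⁻¹ = u := by
          intro u hu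
          have k1 : s * t * u * (s * t)⁻¹ = t * s * u * (t * s)⁻¹ := by
            have key' : ∀ s ∈ Γ, ∀ t ∈ Γ, s * t * u * (s * t)⁻¹ =
                (t * u * t⁻¹ * u⁻¹) * (s * u * s⁻¹ * u⁻¹) * u := by
              intro s hs t ht
              calc s * t * u * (s * t)⁻¹ = (s * (t * u * t⁻¹ * u⁻¹) * s⁻¹) * (s * u * s⁻¹) := by group
                _ = _ := by rw [hs.2.1 _ (ht.2.2 u hu)]; group
            rw [key' s hs t ht, key' t ht s hs,
              CfsgLib.ZJ.good_commute hVg ((hCmem _).1 (ht.2.2 u hu)).1 ((hCmem _).1 (hs.2.2 u hu)).1]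
          calc _ = (t * s)⁻¹ * (s * t * u * (s * t)⁻¹) * (t * s) := by group
            _ = u := by rw [k1]; group
        calc (t * s) * ((t * s)⁻¹ * (s * t)) * ((t * s)⁻¹ * v * (t * s)) * ((t * s)⁻¹ * (s * t))⁻¹ * (t * s)⁻¹
            = (t * s) * (((t * s)⁻¹ * (s * t)) * ((t * s)⁻¹ * v * (t * s)) * ((t * s)⁻¹ * (s * t))⁻¹) * (t * s)⁻¹ := by group
          _ = v := by rw [h3 _ hw]; group
  have hΓcomm : ∀ s ∈ Γ, ∀ t ∈ Γ, s * t * s⁻¹ * t⁻¹ ∈ Subgroup.centralizer (V : Set G) := fun s hs t ht =>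
    mem_centralizer_conj.2 fun v hv => mem_centralizer_singleton.1 (hΓact s hs v hv t ht)
  have hΓsq : ∀ s ∈ Γ, s ^ 2 ∈ Subgroup.centralizer (V : Set G) := fun s hs => mem_centralizer_conj.2 fun v hv => by
    have hcC := hs.2.2 v hv
    calc s ^ 2 * v * (s ^ 2)⁻¹ = (s * (s * v * s⁻¹ * v⁻¹) * s⁻¹) * (s * v * s⁻¹ * v⁻¹) * v := by rw [pow_two]; group
      _ = (s * v * s⁻¹ * v⁻¹) ^ 2 * v := by rw [hs.2.1 _ hcC, pow_two]
      _ = v := by rw [hVg.2 rfl _ ((hCmem _).1 hcC).1, one_mul]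
  have hΓ2 : Nat.card Γ ≤ 2 * Nat.card ↥(Γ ⊓ Subgroup.centralizer (V : Set G)) := by
    have h1 := h.2.2.2 Γ (fun u hu => hu.1) hΓcomm hΓsq
    have h2 : Nat.card C ≤ Nat.card ↥(V ⊓ Subgroup.centralizer (Γ : Set G)) :=
      Subgroup.card_le_of_le (le_inf inf_le_left fun c hc => mem_centralizer.2 fun u hu =>
        conj_eq_iff.1 (hu.2.1 c hc))
    have h3 : Nat.card C * Nat.card Γ ^ 2 ≤ Nat.card C * (2 * Nat.card ↥(Γ ⊓ Subgroup.centralizer (V : Set G))) ^ 2 := by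
      calc Nat.card C * Nat.card Γ ^ 2 ≤ Nat.card Γ ^ 2 * Nat.card ↥(V ⊓ Subgroup.centralizer (Γ : Set G)) := by
            rw [mul_comm]; exact Nat.mul_le_mul_left _ h2
        _ ≤ _ := h1
        _ = _ := by rw [hV4]; ring
    exact (Nat.pow_le_pow_iff_left (by norm_num)).1 (Nat.le_of_mul_le_mul_left h3 Nat.card_pos)
  set b₀ := (x ^ j)⁻¹ * b * x ^ j with hb₀
  have hb₀Γ : b₀ ∈ Γ := hΓmem j b hb
  have hsame : ∀ s ∈ Γ, s ∉ Subgroup.centralizer (V : Set G) → ∀ v ∈ V, s * v * s⁻¹ = b₀ * v * b₀⁻¹ := by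
    intro s hs hsV v hv
    have h3 := mul_mem_of_card_le_two inf_le_left hΓ2 hb₀Γ (fun e => hbj e.2) hs (fun e => hsV e.2)
    calc s * v * s⁻¹ = b₀ * ((b₀⁻¹ * s) * v * (b₀⁻¹ * s)⁻¹) * b₀⁻¹ := by group
      _ = _ := by rw [mem_centralizer_conj.1 h3.2 v hv]
  -- displacement by elements of `A₁` on the module
  have hbN : ∀ z ∈ A₁, z ∈ Subgroup.normalizer (N : Set G) := fun z hz => mem_normalizer_of_conj fun u hu => by
    have h1 : N ≤ N.comap (MulAut.conj z).toMonoidHom := hgen fun v hv i => by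
      show z * (x ^ i * v * (x ^ i)⁻¹) * z⁻¹ ∈ N
      rw [show z * (x ^ i * v * (x ^ i)⁻¹) * z⁻¹ =
        x ^ i * ((x ^ i)⁻¹ * z * x ^ i * v * ((x ^ i)⁻¹ * z * x ^ i)⁻¹) * (x ^ i)⁻¹ by group]
      exact conj_mem_ncl (Subgroup.pow_mem _ (Subgroup.mem_zpowers x) i)
        (conj_mem (h.2.2.1 (hΓmem i z hz).1) hv)
    exact h1 hu
  have hdisp : ∀ (z : G), z ∈ A₁ → ∀ (i : ℕ), ∀ v ∈ V,
      z * (x ^ i * v * (x ^ i)⁻¹) * z⁻¹ * (x ^ i * v * (x ^ i)⁻¹)⁻¹ =
        (x ^ i)⁻¹ * z * x ^ i * v * ((x ^ i)⁻¹ * z * x ^ i)⁻¹ * v⁻¹ := by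
    intro z hz i v hv
    calc z * (x ^ i * v * (x ^ i)⁻¹) * z⁻¹ * (x ^ i * v * (x ^ i)⁻¹)⁻¹
        = x ^ i * ((x ^ i)⁻¹ * z * x ^ i * v * ((x ^ i)⁻¹ * z * x ^ i)⁻¹ * v⁻¹) * (x ^ i)⁻¹ := by group
      _ = _ := hCpow _ ((hΓmem i z hz).2.2 v hv) i
  have hbA : b ∈ A := hA₁ hb
  set δ := disp hNg (hbN b hb) with hδdef
  have hδval : ∀ u : N, δ u = b * u * b⁻¹ * (u : G)⁻¹ := fun u => rfl
  have hδC : ∀ u : N, δ u ∈ C := by
    have hle : N ≤ (C.comap δ).map N.subtype := hgen fun v hv i => by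
      refine ⟨⟨_, conj_mem_ncl (Subgroup.pow_mem _ (Subgroup.mem_zpowers x) i) hv⟩, ?_, rfl⟩
      show b * (x ^ i * v * (x ^ i)⁻¹) * b⁻¹ * (x ^ i * v * (x ^ i)⁻¹)⁻¹ ∈ C
      rw [hdisp b hb i v hv]
      exact (hΓmem i b hb).2.2 v hv
    intro u
    obtain ⟨w, hw, e⟩ := hle u.2
    rw [Subtype.ext e] at hw
    exact hw
  letI : CommGroup N :=
    { (inferInstance : Group N) with mul_comm := fun s t => Subtype.ext (CfsgLib.ZJ.good_commute hNg s.2 t.2) }
  let orb : G → ℕ → G := fun u i => x ^ i * u * (x ^ i)⁻¹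
  have horb : ∀ (u : N) (i : ℕ), orb u i ∈ N := fun u i => conj_mem (pow_mem hxN i) u.2
  let F : N → ℕ → N := fun u i => ⟨orb u i, horb u i⟩
  have hFp : ∀ (u : N) (i : ℕ), F u (i + p) = F u i := fun u i => Subtype.ext (by
    show x ^ (i + p) * u * (x ^ (i + p))⁻¹ = x ^ i * u * (x ^ i)⁻¹
    rw [pow_add, show x ^ i * x ^ p * (u : G) * (x ^ i * x ^ p)⁻¹ = x ^ i * (x ^ p * u * (x ^ p)⁻¹) * (x ^ i)⁻¹ by group,
      mem_centralizer_conj.1 hxpN u u.2])
  have havg : ∀ u : N, a * u * a⁻¹ = u → δ (∏ i ∈ Finset.range p, F u i) = δ u := by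
    intro u hu
    let δ' : N →* N := δ.codRestrict N fun z => hVN ((hCmem _).1 (hδC z)).1
    have h1 : ∏ i ∈ Finset.range p, δ' (F u i) = δ' (F u 0) := by
      refine prod_range_pairing _ hpo (fun i hi hip => ?_) fun i => Subtype.ext (by
        show δ (F u i) * δ (F u i) = 1
        rw [← pow_two]; exact hVg.2 rfl _ ((hCmem _).1 (hδC _)).1)
      refine Subtype.ext ?_
      show b * (x ^ (p - i) * u * (x ^ (p - i))⁻¹) * b⁻¹ * (x ^ (p - i) * u * (x ^ (p - i))⁻¹)⁻¹ = δ (F u i)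
      have e1 : x ^ (p - i) * u * (x ^ (p - i))⁻¹ = a * (x ^ i * u * (x ^ i)⁻¹) * a⁻¹ := by
        calc x ^ (p - i) * (u : G) * (x ^ (p - i))⁻¹
            = (x ^ i)⁻¹ * (x ^ p * u * (x ^ p)⁻¹) * x ^ i := by
              rw [show x ^ (p - i) = (x ^ i)⁻¹ * x ^ p by
                rw [eq_inv_mul_iff_mul_eq, ← pow_add]; congr 1; omega]
              group
          _ = (x ^ i)⁻¹ * (a * u * a⁻¹) * x ^ i := by rw [mem_centralizer_conj.1 hxpN u u.2, hu]
          _ = (a * x ^ i * a⁻¹) * (a * u * a⁻¹) * (a * x ^ i * a⁻¹)⁻¹ := by rw [hinvp]; group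
          _ = _ := by group
      rw [e1]
      have hab : a * b = b * a := hAc a ha b hbA
      calc b * (a * (x ^ i * u * (x ^ i)⁻¹) * a⁻¹) * b⁻¹ * (a * (x ^ i * u * (x ^ i)⁻¹) * a⁻¹)⁻¹
          = (b * a) * (x ^ i * u * (x ^ i)⁻¹) * (b * a)⁻¹ * (a * (x ^ i * u * (x ^ i)⁻¹) * a⁻¹)⁻¹ := by group
        _ = a * δ (F u i) * a⁻¹ := by rw [← hab, hδval]; show _ = a * (b * (x ^ i * u * (x ^ i)⁻¹) * b⁻¹ * (x ^ i * u * (x ^ i)⁻¹)⁻¹) * a⁻¹; group
        _ = δ (F u i) := hav _ ((hCmem _).1 (hδC _)).1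
    rw [← map_prod] at h1
    have h2 : δ (∏ i ∈ Finset.range p, F u i) = δ (F u 0) := congrArg Subtype.val h1
    rwa [show F u 0 = u from Subtype.ext (by simp [F, orb])] at h2
  -- no fixed points outside `C` in two conjugates
  set g := x ^ j with hg
  set k := x ^ (2 * j) with hk
  have hgz : g ∈ Subgroup.zpowers x := Subgroup.pow_mem _ (Subgroup.mem_zpowers x) j
  have hkz : k ∈ Subgroup.zpowers x := Subgroup.pow_mem _ (Subgroup.mem_zpowers x) _
  set Vg := V.map (MulAut.conj g).toMonoidHom with hVgdef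
  set Vk := V.map (MulAut.conj k).toMonoidHom with hVkdef
  have hVgN : Vg ≤ N := by rintro _ ⟨v, hv, rfl⟩; exact conj_mem_ncl hgz hv
  have hVkN : Vk ≤ N := by rintro _ ⟨v, hv, rfl⟩; exact conj_mem_ncl hkz hv
  have hYfix : ∀ v ∈ V, ∀ w ∈ V,
      a * (g * v * g⁻¹ * (k * w * k⁻¹)) * a⁻¹ = g * v * g⁻¹ * (k * w * k⁻¹) →
        g * v * g⁻¹ * (k * w * k⁻¹) ∈ C := by
    intro v hv w hw hfix
    have hgv : g * v * g⁻¹ ∈ N := conj_mem_ncl hgz hv
    have hkw : k * w * k⁻¹ ∈ N := conj_mem_ncl hkz hw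
    let nu : N := ⟨_, mul_mem hgv hkw⟩
    have hδn : δ nu = 1 := by
      rw [← havg nu hfix]
      have e : ∀ i, F nu i = F ⟨v, hVN hv⟩ (i + j) * F ⟨w, hVN hw⟩ (i + 2 * j) := fun i => Subtype.ext (by
        show x ^ i * (g * v * g⁻¹ * (k * w * k⁻¹)) * (x ^ i)⁻¹ =
          (x ^ (i + j) * v * (x ^ (i + j))⁻¹) * (x ^ (i + 2 * j) * w * (x ^ (i + 2 * j))⁻¹)
        rw [hg, hk, pow_add, pow_add]; group)
      simp only [e]
      rw [Finset.prod_mul_distrib, prod_range_shift _ (hFp _) j, prod_range_shift _ (hFp _) (2 * j), map_mul,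
        havg _ (hav v hv), havg _ (hav w hw), hδval, hδval,
        mem_centralizer_conj.1 (hAV hbA) v hv, mem_centralizer_conj.1 (hAV hbA) w hw]
      simp
    rw [show nu = ⟨g * v * g⁻¹, hgv⟩ * ⟨k * w * k⁻¹, hkw⟩ from rfl, map_mul, hδval, hδval] at hδn
    replace hδn : b * (g * v * g⁻¹) * b⁻¹ * (g * v * g⁻¹)⁻¹ * (b * (k * w * k⁻¹) * b⁻¹ * (k * w * k⁻¹)⁻¹) = 1 := hδn
    rw [hg, hk, hdisp b hb j v hv, hdisp b hb (2 * j) w hw] at hδn
    have hvq : b₀ * v * b₀⁻¹ * v⁻¹ ∈ C := hb₀Γ.2.2 v hv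
    have hfixv : v ∈ C → g * v * g⁻¹ * (k * w * k⁻¹) ∈ C := by
      intro hvC
      rw [hg, hCpow v hvC j] at hfix ⊢
      have h1 : a * (k * w * k⁻¹) * a⁻¹ = k * w * k⁻¹ := by
        have h2 : a * (v * (k * w * k⁻¹)) * a⁻¹ = (a * v * a⁻¹) * (a * (k * w * k⁻¹) * a⁻¹) := by group
        rw [h2, hav v hv] at hfix
        exact mul_left_cancel hfix
      have hwC : w ∈ C := by
        refine hfixx (2 * (2 * j)) (hdvd (hdvd hj (Or.inl rfl)) (Or.inl rfl)) w hw ?_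
        have h3 : k⁻¹ * w * k = k * w * k⁻¹ := by
          rw [← h1]
          calc k⁻¹ * w * k = (a * k * a⁻¹) * (a * w * a⁻¹) * (a * k * a⁻¹)⁻¹ := by rw [hk, hinvp, hav w hw]; group
            _ = _ := by group
        calc x ^ (2 * (2 * j)) * w * (x ^ (2 * (2 * j)))⁻¹ = k * (k * w * k⁻¹) * k⁻¹ := by
              rw [hk, two_mul (2 * j), pow_add]; group
          _ = w := by rw [← h3]; group
      rw [hk, hCpow w hwC]
      exact mul_mem hvC hwC
    by_cases hwk : (x ^ (2 * j))⁻¹ * b * x ^ (2 * j) ∈ Subgroup.centralizer (V : Set G)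
    · rw [mem_centralizer_conj.1 hwk w hw, mul_inv_cancel, mul_one, mul_inv_eq_one] at hδn
      exact hfixv ((hkey j b hb hbj).2 v hv hδn)
    rw [hsame _ (hΓmem _ b hb) hwk w hw] at hδn
    have hvw : v * w ∈ C := by
      refine (hkey j b hb hbj).2 _ (mul_mem hv hw) ?_
      have hbv : b₀ * v * b₀⁻¹ ∈ V := conj_mem (h.2.2.1 hb₀Γ.1) hv
      have hbw : b₀ * w * b₀⁻¹ ∈ V := conj_mem (h.2.2.1 hb₀Γ.1) hw
      have h1 : b₀ * (v * w) * b₀⁻¹ * (v * w)⁻¹ = 1 := by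
        refine Eq.trans ?_ hδn
        calc b₀ * (v * w) * b₀⁻¹ * (v * w)⁻¹ = b₀ * v * b₀⁻¹ * ((b₀ * w * b₀⁻¹ * w⁻¹) * v⁻¹) := by group
          _ = b₀ * v * b₀⁻¹ * (v⁻¹ * (b₀ * w * b₀⁻¹ * w⁻¹)) := by
            rw [CfsgLib.ZJ.good_commute hVg (mul_mem hbw (inv_mem hw)) (inv_mem hv)]
          _ = _ := by simp only [hb₀, hg]; group
      exact mul_inv_eq_one.1 h1
    -- reduce to `v = w`
    set c := v * w with hcdef
    have hwv : w = v * c := by
      rw [hcdef, ← mul_assoc, ← pow_two, hVg.2 rfl v hv, one_mul]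
    have hkw' : k * w * k⁻¹ = k * v * k⁻¹ * c := by
      rw [hwv, ← conj_mul, hk, hCpow c hvw]
    rw [hkw'] at hfix ⊢
    rw [show g * v * g⁻¹ * (k * v * k⁻¹ * c) = g * v * g⁻¹ * (k * v * k⁻¹) * c from (mul_assoc _ _ _).symm] at hfix ⊢
    refine mul_mem ?_ hvw
    have hm : a * (g * v * g⁻¹ * (k * v * k⁻¹)) * a⁻¹ = g * v * g⁻¹ * (k * v * k⁻¹) := by
      have h2 : a * (g * v * g⁻¹ * (k * v * k⁻¹) * c) * a⁻¹ =
          a * (g * v * g⁻¹ * (k * v * k⁻¹)) * a⁻¹ * (a * c * a⁻¹) := by group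
      rw [h2, hav c ((hCmem c).1 hvw).1] at hfix
      exact mul_right_cancel hfix
    -- the polynomial relation
    have hgN : ∀ u ∈ N, g * u * g⁻¹ ∈ N := fun u hu => conj_mem (le_normalizer_ncl _ V hgz) hu
    let T : G → G := fun u => g * u * g⁻¹
    have hkT : k = g * g := by rw [hk, hg, two_mul, pow_add]
    have h4 : T (T (T v)) * T (T (T (T v))) = T v * v := by
      have h5 : a * (g * v * g⁻¹ * (k * v * k⁻¹)) * a⁻¹ = g⁻¹ * v * g * (g⁻¹ * (g⁻¹ * v * g) * g) := by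
        calc _ = (a * g * a⁻¹) * (a * v * a⁻¹) * (a * g * a⁻¹)⁻¹ *
              ((a * g * a⁻¹) * (a * g * a⁻¹) * (a * v * a⁻¹) * ((a * g * a⁻¹) * (a * g * a⁻¹))⁻¹) := by rw [hkT]; group
          _ = _ := by rw [hg, hinvp, hav v hv]; group
      rw [h5] at hm
      have h6 := congrArg (fun z => g * (g * z * g⁻¹) * g⁻¹) hm
      simp only [T]
      rw [hkT] at h6
      simp only [mul_inv_rev, mul_assoc, mul_inv_cancel_left, inv_mul_cancel_left, mul_inv_cancel, mul_one] at h6 ⊢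
      exact h6.symm
    have hTN : ∀ u ∈ N, T u ∈ N := hgN
    have hvN := hVN hv
    have hT3v : T (T (T v)) ∈ N := hTN _ (hTN _ (hTN _ hvN))
    set u := T (T (T v)) * v⁻¹ with hu
    have huN : u ∈ N := mul_mem hT3v (inv_mem hvN)
    have hinvN : ∀ z ∈ N, z⁻¹ = z := fun z hz =>
      inv_eq_of_mul_eq_one_right (by rw [← pow_two]; exact hNg.2 rfl z hz)
    have hTu : T u = u := by
      have e : T u = T (T (T (T v))) * T v⁻¹ := by simp only [hu, T]; group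
      rw [e, hinvN v hvN, hu, hinvN v hvN]
      have h7 : T (T (T (T v))) = T (T (T v)) * (T v * v) := by
        rw [← h4, ← mul_assoc, ← pow_two, hNg.2 rfl _ hT3v, one_mul]
      have h8 : v * T v = T v * v := CfsgLib.ZJ.good_commute hNg hvN (hTN _ hvN)
      rw [h7, ← h8, mul_assoc, mul_assoc v, ← pow_two (T v), hNg.2 rfl _ (hTN _ hvN), mul_one]
    have hg3 : x ^ (3 * j) * v * (x ^ (3 * j))⁻¹ = v := by
      refine fix_comm hNg (pow_mem hxN _) hxo (by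
        rw [← pow_mul, mul_comm, pow_mul, pow_orderOf_eq_one, one_pow]; exact one_mem _) hvN ?_
      have e3 : ∀ z : G, x ^ (3 * j) * z * (x ^ (3 * j))⁻¹ = T (T (T z)) := fun z => by
        simp only [T, hg]
        rw [show 3 * j = j + j + j by ring, pow_add, pow_add]; group
      rw [e3, e3, ← hu, hTu, hTu, hTu]
    have hvC := hfixx (3 * j) (hdvd hj (Or.inr rfl)) v hv hg3
    rw [hg, hk, hCpow v hvC, hCpow v hvC]
    exact mul_mem hvC hvC
  -- counting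
  have hVgg : Good 2 true Vg := CfsgLib.ZJ.good_map _ hVg
  have hVkg : Good 2 true Vk := CfsgLib.ZJ.good_map _ hVg
  have hgk : Vg ≤ Subgroup.normalizer (Vk : Set G) := fun z hz => mem_normalizer_of_conj fun w hw => by
    rw [CfsgLib.ZJ.good_commute hNg (hVgN hz) (hVkN hw), mul_inv_cancel_right]; exact hw
  set Y := Vg ⊔ Vk with hY
  have hinter : Vg ⊓ Vk ≤ C := by
    rintro z ⟨hz1, hz2⟩
    obtain ⟨v, hv, rfl⟩ := hz1
    obtain ⟨w, hw, e⟩ := hz2
    have e' : k * w * k⁻¹ = g * v * g⁻¹ := e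
    have hkT : k = g * g := by rw [hk, hg, two_mul, pow_add]
    have hvw : v = g * w * g⁻¹ := by
      rw [hkT] at e'
      calc v = g⁻¹ * (g * v * g⁻¹) * g := by group
        _ = _ := by rw [← e']; group
    have hwC : w ∈ C := by
      refine hfixx (2 * j) (hdvd hj (Or.inl rfl)) w hw ?_
      have h1 := hav v hv
      rw [hvw] at h1
      have h2 : g⁻¹ * w * g = g * w * g⁻¹ := by
        rw [← h1]
        calc g⁻¹ * w * g = (a * g * a⁻¹) * (a * w * a⁻¹) * (a * g * a⁻¹)⁻¹ := by rw [hg, hinvp, hav w hw]; group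
          _ = _ := by group
      show k * w * k⁻¹ = w
      calc k * w * k⁻¹ = g * (g * w * g⁻¹) * g⁻¹ := by rw [hkT]; group
        _ = w := by rw [← h2]; group
    show g * v * g⁻¹ ∈ C
    rw [← e', hk, hCpow w hwC]
    exact hwC
  have hY16 : 16 * Nat.card C ≤ Nat.card Y := by
    have h1 := CfsgLib.ZJ.card_sup_mul_card_inf_of_le_normalizer hgk
    rw [hVgdef, hVkdef, card_map_conj, card_map_conj, hV4] at h1
    have h2 := Subgroup.card_le_of_le hinter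
    refine Nat.le_of_mul_le_mul_right ?_ (Nat.card_pos (α := C))
    calc 16 * Nat.card C * Nat.card C = 4 * Nat.card C * (4 * Nat.card C) := by ring
      _ = _ := h1.symm
      _ ≤ Nat.card Y * Nat.card C := Nat.mul_le_mul_left _ h2
  have hYC : ∀ z ∈ Y, a * z * a⁻¹ = z → z ∈ C := by
    intro z hz hfix
    obtain ⟨s, ⟨v, hv, rfl⟩, t, ⟨w, hw, rfl⟩, rfl⟩ := CfsgLib.CoprimeAction.exists_mul_of_mem_sup hgk hz
    exact hYfix v hv w hw hfix
  have hhalf : ∀ i : ℕ, ∀ P : Subgroup G, P ≤ A₁ → Nat.card P ≤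
      2 * Nat.card ↥(P ⊓ Subgroup.centralizer ((V.map (MulAut.conj (x ^ i)).toMonoidHom : Subgroup G) : Set G)) := by
    intro i P hP
    have hmem : ∀ z, z ∈ Subgroup.centralizer ((V.map (MulAut.conj (x ^ i)).toMonoidHom : Subgroup G) : Set G) ↔
        (x ^ i)⁻¹ * z * x ^ i ∈ Subgroup.centralizer (V : Set G) := by
      intro z
      rw [mem_centralizer_conj, mem_centralizer_conj]
      constructor
      · intro hh v hv
        have h1 := hh _ ⟨v, hv, rfl⟩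
        have h2 := congrArg (fun u => (x ^ i)⁻¹ * u * x ^ i) h1
        simpa [mul_assoc, -map_inv, -map_pow] using h2
      · rintro hh _ ⟨v, hv, rfl⟩
        have h2 := congrArg (fun u => x ^ i * u * (x ^ i)⁻¹) (hh v hv)
        simpa [mul_assoc, -map_inv, -map_pow] using h2
    refine card_le_two_mul fun s hs hsn t ht htn => ⟨P.mul_mem (P.inv_mem hs) ht, ?_⟩
    refine (hmem _).2 (mem_centralizer_conj.2 fun v hv => ?_)
    have hs' := hsame _ (hΓmem i s (hP hs)) (fun e => hsn ⟨hs, (hmem s).2 e⟩) v hv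
    have ht' := hsame _ (hΓmem i t (hP ht)) (fun e => htn ⟨ht, (hmem t).2 e⟩) v hv
    calc (x ^ i)⁻¹ * (s⁻¹ * t) * x ^ i * v * ((x ^ i)⁻¹ * (s⁻¹ * t) * x ^ i)⁻¹
        = ((x ^ i)⁻¹ * s * x ^ i)⁻¹ * ((x ^ i)⁻¹ * t * x ^ i * v * ((x ^ i)⁻¹ * t * x ^ i)⁻¹) *
          ((x ^ i)⁻¹ * s * x ^ i) := by group
      _ = v := by rw [ht', ← hs']; group
  set K₀ := A₁ ⊓ Subgroup.centralizer (Vg : Set G) with hK₀
  set K := K₀ ⊓ Subgroup.centralizer (Vk : Set G) with hK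
  have h1 : Nat.card A₁ ≤ 2 * Nat.card K₀ := hhalf j A₁ le_rfl
  have h2 : Nat.card K₀ ≤ 2 * Nat.card K := hhalf (2 * j) K₀ inf_le_left
  have hKA : K ≤ A := inf_le_left.trans (inf_le_left.trans hA₁)
  have hYg : Good 2 true Y := CfsgLib.ZJ.good_sup hVgg hVkg fun w hw => mem_centralizer.2 fun z hz =>
    CfsgLib.ZJ.good_commute hNg (hVgN hz) (hVkN hw)
  have hYK : Y ≤ Subgroup.centralizer (K : Set G) := sup_le
    (fun w hw => mem_centralizer.2 fun z hz => (mem_centralizer.1 hz.1.2 w hw).symm)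
    (fun w hw => mem_centralizer.2 fun z hz => (mem_centralizer.1 hz.2 w hw).symm)
  have h3 := card_mul_le hA (CfsgLib.ZJ.good_mono hKA hA.2.1) hYg (hKA.trans hA.1)
    ((sup_le hVgN hVkN).trans hNU) hYK
  have h4 : Nat.card ↥(K ⊓ Y) ≤ Nat.card C := Subgroup.card_le_of_le fun z hz =>
    hYC z hz.2 (conj_eq_iff.2 (hAc a ha z (hKA hz.1)))
  have h5 : Nat.card Y ≤ 8 * Nat.card C := by
    refine Nat.le_of_mul_le_mul_left (c := Nat.card K) ?_ Nat.card_pos
    calc Nat.card K * Nat.card Y ≤ Nat.card A * Nat.card ↥(K ⊓ Y) := h3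
      _ ≤ (2 * (2 * (2 * Nat.card K))) * Nat.card C := Nat.mul_le_mul (by omega) h4
      _ = _ := by ring
  have : 0 < Nat.card C := Nat.card_pos
  omega

/-- An inverted element of odd order centralizes the module. -/
theorem mem_centralizer_of_inverted {L U V A A₁ : Subgroup G} (hL : Loc L) (hU : IsSyl L U) (h : Sq U V)
    (hA : A ∈ maxGood 2 true U) (hA₁ : A₁ ≤ A) (hc : Nat.card A ≤ 2 * Nat.card A₁) {a x : G} (ha : a ∈ A)
    (hxL : x ∈ L) (hxo : Odd (orderOf x)) (hinv : a * x * a⁻¹ = x⁻¹)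
    (hconj : ∀ b ∈ A₁, ∀ g ∈ Subgroup.zpowers x, g * b * g⁻¹ ∈ U) :
    x ∈ Subgroup.centralizer (V : Set G) := by
  classical
  by_contra hx
  have hex : ∃ d, 0 < d ∧ x ^ d ∈ Subgroup.centralizer (V : Set G) :=
    ⟨orderOf x, orderOf_pos x, by rw [pow_orderOf_eq_one]; exact one_mem _⟩
  set d := Nat.find hex with hd
  obtain ⟨hd0, hdC⟩ : 0 < d ∧ x ^ d ∈ Subgroup.centralizer (V : Set G) := Nat.find_spec hex
  have hd1 : d ≠ 1 := fun e => hx (by rw [e, pow_one] at hdC; exact hdC)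
  have hdn : d ∣ orderOf x := by
    refine Nat.dvd_of_mod_eq_zero ?_
    by_contra hne
    refine Nat.find_min hex (Nat.mod_lt _ hd0 : orderOf x % d < d) ⟨Nat.pos_of_ne_zero hne, ?_⟩
    have e := pow_orderOf_eq_one x
    rw [← Nat.mod_add_div (orderOf x) d, pow_add, pow_mul] at e
    rw [eq_inv_of_mul_eq_one_left e]
    exact inv_mem (pow_mem hdC _)
  set p := d.minFac with hp
  have hpp : p.Prime := Nat.minFac_prime hd1
  have hpd : p ∣ d := Nat.minFac_dvd d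
  have hpo : Odd p := hxo.of_dvd_nat (hpd.trans hdn)
  set y := x ^ (d / p) with hy
  have hyz : Subgroup.zpowers y ≤ Subgroup.zpowers x :=
    Subgroup.zpowers_le.2 (Subgroup.pow_mem _ (Subgroup.mem_zpowers x) _)
  have hlt : d / p < d := Nat.div_lt_self hd0 hpp.one_lt
  have hdp : 0 < d / p := Nat.div_pos (Nat.le_of_dvd hd0 hpd) hpp.pos
  refine false_of_prime hL hU h hA hA₁ hc ha (pow_mem hxL _)
    (hxo.of_dvd_nat (orderOf_pow_dvd _)) (by rw [← conj_pow, hinv, inv_pow])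
    (fun b hb g hg => hconj b hb g (hyz hg)) hpp hpo
    (fun hh => Nat.find_min hex hlt ⟨hdp, hh⟩) ?_
  rw [← pow_mul, Nat.div_mul_cancel hpd]
  exact hdC

end CfsgLib.SolvFactor
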