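import Cfsg.Agent.SolvFactor.Module
import Cfsg.Agent.CoprimeAction.Frattini

/-!
A module with the squared bound lies in the `2`-core and commutes with its conjugates.
-/

set_option autoImplicit false
set_option linter.unusedSectionVars false
set_option linter.style.haveILetI false

namespace CfsgLib.SolvFactor

open CfsgLib.ZJ (Good)

variable {G : Type*} [Group G] [Finite G]

theorem card_le_two_of_lt_four {H K : Subgroup G} (hK : IsPGroup 2 K) (hle : H ≤ K)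
    (h : Nat.card K < 4 * Nat.card H) : Nat.card K ≤ 2 * Nat.card H := by
  haveI : Fact (Nat.Prime 2) := ⟨Nat.prime_two⟩
  obtain ⟨i, hi⟩ := IsPGroup.iff_card.1 hK
  obtain ⟨j, hj⟩ := IsPGroup.iff_card.1 (hK.to_le hle)
  rw [hi, hj] at h ⊢
  rw [show 4 * 2 ^ j = 2 ^ (j + 2) by ring] at h
  have := (Nat.pow_lt_pow_iff_right (by norm_num)).1 h
  rw [show 2 * 2 ^ j = 2 ^ (j + 1) by ring]
  exact Nat.pow_le_pow_right (by norm_num) (by omega)

theorem two_mul_card_le {H K : Subgroup G} (hK : IsPGroup 2 K) (hle : H ≤ K) (hne : H ≠ K) :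
    2 * Nat.card H ≤ Nat.card K := by
  haveI : Fact (Nat.Prime 2) := ⟨Nat.prime_two⟩
  obtain ⟨i, hi⟩ := IsPGroup.iff_card.1 hK
  obtain ⟨j, hj⟩ := IsPGroup.iff_card.1 (hK.to_le hle)
  have hlt : Nat.card H < Nat.card K :=
    lt_of_le_of_ne (Subgroup.card_le_of_le hle) fun e => hne (Subgroup.eq_of_le_of_card_ge hle e.ge)
  rw [hi, hj] at hlt ⊢
  have := (Nat.pow_lt_pow_iff_right (by norm_num)).1 hlt
  rw [show 2 * 2 ^ j = 2 ^ (j + 1) by ring]
  exact Nat.pow_le_pow_right (by norm_num) (by omega)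

theorem good_subgroupOf {V L : Subgroup G} (hV : Good 2 true V) : Good 2 true (V.subgroupOf L) :=
  ⟨⟨⟨fun a b => Subtype.ext (Subtype.ext (CfsgLib.ZJ.good_commute hV a.2 b.2))⟩⟩,
    fun _ a ha => Subtype.ext (hV.2 rfl _ ha)⟩

theorem good_isPGroup {V : Subgroup G} (hV : Good 2 true V) : IsPGroup 2 V :=
  fun a => ⟨1, Subtype.ext (by rw [pow_one]; exact hV.2 rfl _ a.2)⟩

/-- The displacement map of `x` on an elementary abelian subgroup it normalizes. -/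
def disp {K : Subgroup G} (hK : Good 2 true K) {x : G} (hxN : x ∈ Subgroup.normalizer (K : Set G)) : K →* G where
  toFun k := x * k * x⁻¹ * (k : G)⁻¹
  map_one' := by simp
  map_mul' a b := by
    have e : x * b * x⁻¹ * (a : G)⁻¹ = (a : G)⁻¹ * (x * b * x⁻¹) :=
      CfsgLib.ZJ.good_commute hK (conj_mem hxN b.2) (inv_mem a.2)
    have e2 : (b : G)⁻¹ * (a : G)⁻¹ = (a : G)⁻¹ * (b : G)⁻¹ :=
      CfsgLib.ZJ.good_commute hK (inv_mem b.2) (inv_mem a.2)
    calc x * ((a * b : K) : G) * x⁻¹ * ((a * b : K) : G)⁻¹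
        = x * a * x⁻¹ * (x * b * x⁻¹) * ((b : G)⁻¹ * (a : G)⁻¹) := by simp [mul_assoc]
      _ = x * a * x⁻¹ * (x * b * x⁻¹ * (a : G)⁻¹) * (b : G)⁻¹ := by rw [e2]; group
      _ = x * a * x⁻¹ * (a : G)⁻¹ * (x * b * x⁻¹ * (b : G)⁻¹) := by rw [e]; group

theorem normalizer_le_normalizer_frattini (T : Subgroup G) :
    Subgroup.normalizer (T : Set G) ≤ Subgroup.normalizer (((frattini T).map T.subtype : Subgroup G) : Set G) := by
  intro n hn
  refine Subgroup.mem_normalizer_fintype ?_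
  rintro _ ⟨x, hx, rfl⟩
  let c : T ≃* T :=
    { toFun := fun z => ⟨n * z * n⁻¹, conj_mem hn z.2⟩
      invFun := fun z => ⟨n⁻¹ * z * n, conj_mem' hn z.2⟩
      left_inv := fun z => Subtype.ext (by group)
      right_inv := fun z => Subtype.ext (by group)
      map_mul' := fun a b => Subtype.ext (by simp only [Subgroup.coe_mul]; group) }
  refine ⟨c x, ?_, rfl⟩
  have := Subgroup.characteristic_iff_map_eq.1 (inferInstance : (frattini T).Characteristic) c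
  exact this ▸ Subgroup.mem_map_of_mem _ hx

/-- The key counting step. -/
theorem four_core {L M : Subgroup G} (hL : Loc L) (hML : M ≤ core L) (hMg : Good 2 true M) {x r : G}
    (hxL : x ∈ L) (hrL : r ∈ L) (hr2 : r * r = 1) (hxo : Odd (orderOf x)) (hinv : r * x * r⁻¹ = x⁻¹)
    (hxQ : x ∉ core L)
    (hcomm : ∀ q ∈ core L, (x * r * x⁻¹) * q * (x * r * x⁻¹)⁻¹ * q⁻¹ ∈ M) :
    4 * Nat.card ↥(M ⊓ Subgroup.centralizer ({r} : Set G)) ≤ Nat.card M := by
  haveI : Fact (Nat.Prime 2) := ⟨Nat.prime_two⟩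
  by_contra hlt
  push Not at hlt
  have hM2 := card_le_two_of_lt_four (good_isPGroup hMg) inf_le_left hlt
  set Q := core L with hQ
  set Φ := (frattini Q).map Q.subtype with hΦ
  have hΦQ : Φ ≤ Q := Subgroup.map_subtype_le _
  have hΦn : L ≤ Subgroup.normalizer (Φ : Set G) :=
    (le_normalizer_core L).trans (normalizer_le_normalizer_frattini Q)
  haveI : (Φ.subgroupOf L).Normal := Subgroup.normal_subgroupOf_of_le_normalizer hΦn
  set π := QuotientGroup.mk' (Φ.subgroupOf L) with hπ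
  have hπ1 : ∀ l : L, π l = 1 ↔ (l : G) ∈ Φ := fun l => by
    rw [hπ, QuotientGroup.mk'_apply, QuotientGroup.eq_one_iff]; rfl
  set K := (Q.subgroupOf L).map π with hKdef
  have hK : Good 2 true K := by
    refine ⟨⟨⟨?_⟩⟩, ?_⟩
    · rintro ⟨_, a, ha, rfl⟩ ⟨_, b, hb, rfl⟩
      refine Subtype.ext ?_
      show π a * π b = π b * π a
      have h1 : π (a * b * a⁻¹ * b⁻¹) = 1 := (hπ1 _).2
        ⟨_, CfsgLib.CoprimeAction.commutator_le_frattini' (core_isPGroup L)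
          (Subgroup.commutator_mem_commutator (g₁ := (⟨a, ha⟩ : Q)) (g₂ := ⟨b, hb⟩) trivial trivial), by
          simp [commutatorElement_def]⟩
      simpa [mul_inv_eq_one, mul_inv_eq_iff_eq_mul] using h1
    · rintro - _ ⟨a, ha, rfl⟩
      rw [← map_pow]
      exact (hπ1 _).2 ⟨_, CfsgLib.CoprimeAction.pow_mem_frattini (core_isPGroup L) ⟨a, ha⟩, rfl⟩
  have hKn : ∀ g : L, π g ∈ Subgroup.normalizer (K : Set _) := fun g => by
    refine mem_normalizer_of_conj ?_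
    rintro _ ⟨q, hq, rfl⟩
    exact ⟨g * q * g⁻¹, (conj_mem (le_normalizer_core L g.2) hq : (g : G) * q * (g : G)⁻¹ ∈ Q), by simp⟩
  set X := π ⟨x, hxL⟩ with hX
  set T := π ⟨r, hrL⟩ with hT
  set T' := π (⟨x, hxL⟩ * ⟨r, hrL⟩ * ⟨x, hxL⟩⁻¹) with hT'
  have hXn : X ^ orderOf x = 1 := by
    rw [hX, ← map_pow, show (⟨x, hxL⟩ : L) ^ orderOf x = 1 from Subtype.ext (pow_orderOf_eq_one x), map_one]
  have hTX : T * X * T⁻¹ = X⁻¹ := by
    rw [hT, hX, ← map_inv π, ← map_mul, ← map_mul, ← map_inv π]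
    exact congrArg π (Subtype.ext hinv)
  have hT'e : T' = X * T * X⁻¹ := by rw [hT', map_mul, map_mul, map_inv]
  have hT2 : T * T = 1 := by
    rw [hT, ← map_mul, show (⟨r, hrL⟩ : L) * ⟨r, hrL⟩ = 1 from Subtype.ext hr2, map_one]
  have hT'2 : T' * T' = 1 := by
    rw [hT'e]
    calc X * T * X⁻¹ * (X * T * X⁻¹) = X * (T * T) * X⁻¹ := by group
      _ = 1 := by rw [hT2]; group
  have hT'X : T' * X * T'⁻¹ = X⁻¹ := by
    rw [hT'e]
    calc X * T * X⁻¹ * X * (X * T * X⁻¹)⁻¹ = X * (T * X * T⁻¹) * X⁻¹ := by group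
      _ = X⁻¹ := by rw [hTX]; group
  -- both involutions fix only what `X` fixes
  have hfix2 : ∀ u, T * u * T⁻¹ = u → T' * u * T'⁻¹ = u → X * u * X⁻¹ = u := by
    intro u h1 h2
    rw [← mem_centralizer_singleton] at h1 h2 ⊢
    refine mem_of_sq_of_odd hxo ?_ (by rw [hXn]; exact one_mem _)
    have e : T' * T = X ^ 2 := by
      calc T' * T = X * (T * X⁻¹ * T⁻¹) * (T * T) := by rw [hT'e]; group
        _ = X * X * 1 := by rw [hT2, ← conj_inv, hTX, inv_inv]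
        _ = X ^ 2 := by rw [mul_one, pow_two]
    rw [← e]
    exact mul_mem h2 h1
  have hXK : X ∉ Subgroup.centralizer (K : Set _) := by
    intro hc
    refine hxQ (hL.char2 x hxL fun q hq => ?_)
    have h1 : Subgroup.zpowers x ≤ Subgroup.centralizer (Q : Set G) := by
      refine CfsgLib.CoprimeAction.le_centralizer_of_frattini ?_ ?_
      · obtain ⟨j, hj⟩ := IsPGroup.iff_card.1 ((core_isPGroup L).to_subgroup (frattini Q))
        rw [Nat.card_zpowers, hj]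
        exact (Nat.coprime_two_right.2 hxo).pow_right _
      · intro a ha k hk
        obtain ⟨i, rfl⟩ := Subgroup.mem_zpowers_iff.1 ha
        have h2 : π (⟨x, hxL⟩ ^ i) ∈ Subgroup.centralizer (K : Set _) := by
          rw [map_zpow]; exact Subgroup.zpow_mem _ hc i
        have h3 := mem_centralizer_conj.1 h2 (π ⟨k, core_le L hk⟩) ⟨_, hk, rfl⟩
        rw [← mul_inv_eq_one, ← map_inv, ← map_mul, ← map_mul, ← map_inv, ← map_mul] at h3
        simpa [-Subgroup.mem_map, hΦ] using (hπ1 _).1 h3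
    exact mem_centralizer.1 (h1 (Subgroup.mem_zpowers x)) q hq
  set δ := disp hK (hKn ⟨x, hxL⟩) with hδ
  set I := δ.range with hI
  have hIK : I ≤ K := by
    rintro _ ⟨k, rfl⟩
    exact mul_mem (conj_mem (hKn _) k.2) (inv_mem k.2)
  have hfpf : ∀ u ∈ I, X * u * X⁻¹ = u → u = 1 := by
    rintro _ ⟨k, rfl⟩ h
    show X * k * X⁻¹ * (k : L ⧸ Φ.subgroupOf L)⁻¹ = 1
    rw [mul_inv_eq_one]
    exact fix_comm hK (hKn _) hxo (by rw [hXn]; exact one_mem _) k.2 h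
  have hIX : X ∈ Subgroup.normalizer (I : Set _) := mem_normalizer_of_conj (by
    rintro _ ⟨k, rfl⟩
    refine ⟨⟨X * k * X⁻¹, conj_mem (hKn _) k.2⟩, ?_⟩
    show X * (X * k * X⁻¹) * X⁻¹ * (X * k * X⁻¹)⁻¹ = X * (X * k * X⁻¹ * (k : L ⧸ Φ.subgroupOf L)⁻¹) * X⁻¹
    group)
  have hIT : T' ∈ Subgroup.normalizer (I : Set _) := mem_normalizer_of_conj (by
    rintro _ ⟨k, rfl⟩
    have hk' : X⁻¹ * (T' * k * T'⁻¹) * X ∈ K := conj_mem' (hKn _) (conj_mem (hKn _) k.2)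
    refine ⟨⟨_, inv_mem hk'⟩, ?_⟩
    show X * (X⁻¹ * (T' * k * T'⁻¹) * X)⁻¹ * X⁻¹ * (X⁻¹ * (T' * k * T'⁻¹) * X)⁻¹⁻¹ =
      T' * (X * k * X⁻¹ * (k : L ⧸ Φ.subgroupOf L)⁻¹) * T'⁻¹
    have e : T' * (X * k * X⁻¹ * (k : L ⧸ Φ.subgroupOf L)⁻¹) * T'⁻¹ =
        (T' * X * T'⁻¹) * (T' * k * T'⁻¹) * (T' * X * T'⁻¹)⁻¹ * (T' * k * T'⁻¹)⁻¹ := by group
    rw [e, hT'X]
    have hc := CfsgLib.ZJ.good_commute hK (inv_mem (conj_mem (hKn (⟨x, hxL⟩ * ⟨r, hrL⟩ * ⟨x, hxL⟩⁻¹)) k.2)) hk'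
    calc X * (X⁻¹ * (T' * k * T'⁻¹) * X)⁻¹ * X⁻¹ * (X⁻¹ * (T' * k * T'⁻¹) * X)⁻¹⁻¹
        = (T' * k * T'⁻¹)⁻¹ * (X⁻¹ * (T' * k * T'⁻¹) * X) := by group
      _ = (X⁻¹ * (T' * k * T'⁻¹) * X) * (T' * k * T'⁻¹)⁻¹ := hc
      _ = _ := by group)
  -- the lifted displacements
  have hlift : ∀ w ∈ I, ∃ m : L, (m : G) ∈ M ∧ π m = T' * w * T'⁻¹ * w⁻¹ := by
    intro w hw
    obtain ⟨q, hq, rfl⟩ := hIK hw
    exact ⟨⟨x, hxL⟩ * ⟨r, hrL⟩ * ⟨x, hxL⟩⁻¹ * q * (⟨x, hxL⟩ * ⟨r, hrL⟩ * ⟨x, hxL⟩⁻¹)⁻¹ * q⁻¹,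
      hcomm q hq, by simp [hT']⟩
  have hdI : ∀ w ∈ I, T' * w * T'⁻¹ * w⁻¹ ∈ I := fun w hw => mul_mem (conj_mem hIT hw) (inv_mem hw)
  have hdT' : ∀ w ∈ I, T' * (T' * w * T'⁻¹ * w⁻¹) * T'⁻¹ = T' * w * T'⁻¹ * w⁻¹ := by
    intro w hw
    have h1 : ∀ z ∈ I, z⁻¹ = z := fun z hz =>
      inv_eq_of_mul_eq_one_right (by rw [← pow_two]; exact hK.2 rfl _ (hIK hz))
    have h2 : T'⁻¹ = T' := inv_eq_of_mul_eq_one_right hT'2
    calc T' * (T' * w * T'⁻¹ * w⁻¹) * T'⁻¹ = (T' * T') * w * (T' * T')⁻¹ * (T' * w * T'⁻¹)⁻¹ := by group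
      _ = w * (T' * w * T'⁻¹) := by rw [hT'2, h1 _ (conj_mem hIT hw)]; group
      _ = T' * w * T'⁻¹ * w⁻¹ := by
        rw [CfsgLib.ZJ.good_commute hK (hIK hw) (hIK (conj_mem hIT hw)), h1 w hw]
  have hMC : ∀ w ∈ I, ∀ m : L, π m = T' * w * T'⁻¹ * w⁻¹ → (m : G) ∈ Subgroup.centralizer ({r} : Set G) →
      T' * w * T'⁻¹ = w := by
    intro w hw m hm hmr
    have h1 : T * π m * T⁻¹ = π m := by
      rw [hT, ← map_inv, ← map_mul, ← map_mul]
      exact congrArg π (Subtype.ext (mem_centralizer_singleton'.1 hmr))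
    rw [← mul_inv_eq_one]
    rw [hm] at h1
    exact hfpf _ (hdI w hw) (hfix2 _ h1 (hdT' w hw))
  set E := I ⊓ Subgroup.centralizer ({T'} : Set _) with hE
  have hle2 : Nat.card I ≤ 2 * Nat.card E := card_le_two_mul fun g hg hgn k hk hkn => by
    have hgk : g⁻¹ * k ∈ I := mul_mem (inv_mem hg) hk
    refine ⟨hgk, mem_centralizer_singleton'.2 ?_⟩
    obtain ⟨mg, hmg, hmg'⟩ := hlift g hg
    obtain ⟨mk, hmk, hmk'⟩ := hlift k hk
    have hng : (mg : G) ∉ Subgroup.centralizer ({r} : Set G) := fun h =>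
      hgn ⟨hg, mem_centralizer_singleton'.2 (hMC g hg mg hmg' h)⟩
    have hnk : (mk : G) ∉ Subgroup.centralizer ({r} : Set G) := fun h =>
      hkn ⟨hk, mem_centralizer_singleton'.2 (hMC k hk mk hmk' h)⟩
    have hdiff := mul_mem_of_card_le_two inf_le_left hM2 hmg (fun h => hng h.2) hmk (fun h => hnk h.2)
    refine hMC _ hgk (mg⁻¹ * mk) ?_ (by simpa using hdiff.2)
    rw [map_mul, map_inv, hmg', hmk']
    have hc : T' * k * T'⁻¹ * k⁻¹ ∈ I := hdI k hk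
    have hgi : g ∈ K := hIK hg
    calc (T' * g * T'⁻¹ * g⁻¹)⁻¹ * (T' * k * T'⁻¹ * k⁻¹) = g * ((T' * g * T'⁻¹)⁻¹ * (T' * k * T'⁻¹) * k⁻¹) := by group
      _ = ((T' * g * T'⁻¹)⁻¹ * (T' * k * T'⁻¹) * k⁻¹) * g :=
        CfsgLib.ZJ.good_commute hK hgi (mul_mem (mul_mem (inv_mem (hIK (conj_mem hIT hg))) (hIK (conj_mem hIT hk)))
          (inv_mem (hIK hk)))
      _ = T' * (g⁻¹ * k) * T'⁻¹ * (g⁻¹ * k)⁻¹ := by group
  have hS4 : ¬ Cfsg.Involves (Equiv.Perm (Fin 4)) (⊤ : Subgroup (L ⧸ Φ.subgroupOf L)) := fun h =>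
    hL.s4free (CfsgLib.ZJ.involves_quotient (Φ.subgroupOf L) (CfsgLib.ZJ.involves_subgroup ⊤ h))
  have hxI : X ∉ Subgroup.centralizer (I : Set _) := fun h => hXK (mem_centralizer_conj.2 fun k hk => by
    have hu : X * k * X⁻¹ * k⁻¹ ∈ I := ⟨⟨k, hk⟩, rfl⟩
    rw [← mul_inv_eq_one]
    exact hfpf _ hu (mem_centralizer_conj.1 h _ hu))
  have h4 : 4 * Nat.card E ≤ Nat.card I := four hS4 le_top (CfsgLib.ZJ.good_mono hIK hK) (Subgroup.mem_top X) (Subgroup.mem_top T') hIX hIT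
    hxo (by rw [hXn]; exact one_mem _) ⟨1, by rw [pow_one, pow_two, hT'2]⟩
    (by rw [hT'X, inv_mul_cancel]; exact one_mem _) hxI
  have hE0 : 0 < Nat.card E := Nat.card_pos
  omega

/-- A module with the squared bound lies in the core. -/
theorem le_core_of_sq {L U V : Subgroup G} (hL : Loc L) (hU : IsSyl L U) (h : Sq U V) : V ≤ core L := by
  haveI : Fact (Nat.Prime 2) := ⟨Nat.prime_two⟩
  by_contra hVQ
  haveI := Cfsg.pCore_normal 2 L
  set π := QuotientGroup.mk' (Cfsg.pCore 2 L) with hπ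
  haveI := hL.solv
  haveI : Group.IsSolvable (L ⧸ Cfsg.pCore 2 L) := Group.isSolvable_of_surjective (QuotientGroup.mk'_surjective _)
  have hπ1 : ∀ l : L, π l = 1 ↔ (l : G) ∈ core L := fun l => by
    rw [hπ, QuotientGroup.mk'_apply, QuotientGroup.eq_one_iff]
    exact ⟨fun hh => ⟨l, hh, rfl⟩, fun ⟨w, hw, e⟩ => (Subtype.ext e : w = l) ▸ hw⟩
  have hVL : V ≤ L := h.1.trans hU.le
  set Vb := (V.subgroupOf L).map π with hVbar
  have hV1 : Vb ≠ ⊥ := by
    obtain ⟨v, hv, hvQ⟩ := SetLike.not_le_iff_exists.1 hVQ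
    intro e
    have h1 : π ⟨v, hVL hv⟩ ∈ Vb := ⟨_, hv, rfl⟩
    rw [e, Subgroup.mem_bot] at h1
    exact hvQ ((hπ1 _).1 h1)
  obtain ⟨B, r', y, hBR, hBc, hr', hrB, hy1, hyodd, hcy, hinv⟩ :=
    exists_inverted CfsgLib.PCore.pCore_quotient (CfsgLib.ZJ.good_map π (good_subgroupOf h.2.1)) hV1
  obtain ⟨r, hr, rfl⟩ := hr'
  obtain ⟨x, hxo, hrx, rfl⟩ := exists_lift_inverted π (QuotientGroup.mk'_surjective _) r
    (Subtype.ext (by show (r : G) * r = 1; rw [← pow_two]; exact h.2.1.2 rfl _ hr)) hyodd hinv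
  set V₁ := V ⊓ (B.comap π).map L.subtype with hV₁
  have hmem : ∀ g : L, (g : G) ∈ V₁ ↔ (g : G) ∈ V ∧ π g ∈ B := fun g => by
    constructor
    · rintro ⟨h1, w, hw, e⟩
      exact ⟨h1, (Subtype.ext e : w = g) ▸ hw⟩
    · rintro ⟨h1, h2⟩
      exact ⟨h1, g, h2, rfl⟩
  have hle2 : Nat.card V ≤ 2 * Nat.card V₁ := card_le_two_mul fun g hg hgn k hk hkn => by
    refine (hmem (⟨g, hVL hg⟩⁻¹ * ⟨k, hVL hk⟩)).2 ⟨mul_mem (inv_mem hg) hk, ?_⟩
    rw [map_mul, map_inv]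
    exact mul_mem_of_card_le_two hBR hBc.le (g := π ⟨g, hVL hg⟩) ⟨_, hg, rfl⟩
      (fun hh => hgn ((hmem ⟨g, hVL hg⟩).2 ⟨hg, hh⟩)) ⟨⟨k, hVL hk⟩, hk, rfl⟩
      (fun hh => hkn ((hmem ⟨k, hVL hk⟩).2 ⟨hk, hh⟩))
  have hxU : ∀ u ∈ V₁, (x : G) * u * (x : G)⁻¹ ∈ U ∧ (x : G)⁻¹ * u * x ∈ U := by
    intro u hu
    have hu' := (hmem ⟨u, hVL hu.1⟩).1 hu
    constructor
    · have h1 : π (x * ⟨u, hVL hu.1⟩ * x⁻¹ * ⟨u, hVL hu.1⟩⁻¹) = 1 := by
        rw [map_mul, map_mul, map_mul, map_inv, map_inv, ← hcy _ hu'.2]; group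
      have h2 := U.mul_mem (core_le_syl hU ((hπ1 _).1 h1)) (h.1 hu.1)
      simpa using h2
    · have h1 : π (x⁻¹ * ⟨u, hVL hu.1⟩ * x * ⟨u, hVL hu.1⟩⁻¹) = 1 := by
        rw [map_mul, map_mul, map_mul, map_inv, map_inv, mul_assoc (π x)⁻¹, hcy _ hu'.2]; group
      have h2 := U.mul_mem (core_le_syl hU ((hπ1 _).1 h1)) (h.1 hu.1)
      simpa using h2
  set f := (MulAut.conj (x : G)).toMonoidHom with hf
  set R := V₁.map f with hR
  set V' := V.map f with hV'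
  have hRU : R ≤ U := by rintro _ ⟨u, hu, rfl⟩; exact (hxU u hu).1
  have hRg : Good 2 true R := CfsgLib.ZJ.good_map f (CfsgLib.ZJ.good_mono inf_le_left h.2.1)
  have hRV' : R ≤ V' := Subgroup.map_mono inf_le_left
  set c := Nat.card ↥(V₁ ⊓ Subgroup.centralizer (V' : Set G)) with hc
  set c' := Nat.card ↥(R ⊓ Subgroup.centralizer (V : Set G)) with hc'
  set m := Nat.card V₁ with hm
  have hRm : Nat.card R = m := card_map_conj _ _
  have hi : m * c ≤ 2 * c' ^ 2 := by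
    have h1 := h.bound_of_good hRU hRg
    rw [hRm] at h1
    have h2 : c ≤ Nat.card ↥(V ⊓ Subgroup.centralizer (R : Set G)) := Subgroup.card_le_of_le fun v hv =>
      ⟨hv.1.1, Subgroup.centralizer_le hRV' hv.2⟩
    have h3 : m * (m * c) ≤ m * (2 * c' ^ 2) := by
      calc m * (m * c) = m ^ 2 * c := by ring
        _ ≤ Nat.card V * c' ^ 2 := (Nat.mul_le_mul_left _ h2).trans h1
        _ ≤ 2 * m * c' ^ 2 := Nat.mul_le_mul_right _ hle2
        _ = _ := by ring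
    exact Nat.le_of_mul_le_mul_left h3 Nat.card_pos
  have hii : m * c' ≤ 2 * c ^ 2 := by
    have h1 := (h.map_conj (x : G)).bound_of_good (R := V₁) (fun u hu => mem_map_conj.2 (hxU u hu).2)
      (CfsgLib.ZJ.good_mono inf_le_left h.2.1)
    rw [show Nat.card ↥(V.map (MulAut.conj (x : G)).toMonoidHom) = Nat.card V from card_map_conj _ _] at h1
    have h2 : c' ≤ Nat.card ↥(V' ⊓ Subgroup.centralizer (V₁ : Set G)) := Subgroup.card_le_of_le fun v hv =>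
      ⟨hRV' hv.1, Subgroup.centralizer_le inf_le_left hv.2⟩
    have h3 : m * (m * c') ≤ m * (2 * c ^ 2) := by
      calc m * (m * c') = m ^ 2 * c' := by ring
        _ ≤ Nat.card V * c ^ 2 := (Nat.mul_le_mul_left _ h2).trans h1
        _ ≤ 2 * m * c ^ 2 := Nat.mul_le_mul_right _ hle2
        _ = _ := by ring
    exact Nat.le_of_mul_le_mul_left h3 Nat.card_pos
  set M := core L ⊓ V' with hM
  have hMR : M ≤ R := by
    rintro z ⟨hzQ, v, hv, rfl⟩
    refine ⟨v, (hmem ⟨v, hVL hv⟩).2 ⟨hv, ?_⟩, rfl⟩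
    have h1 := conj_mem' (le_normalizer_core L x.2) hzQ
    have h2 : v ∈ core L := by simpa [hf, mul_assoc] using h1
    rw [(hπ1 ⟨v, hVL hv⟩).2 h2]
    exact one_mem _
  have hfour := four_core hL (M := M) inf_le_left (CfsgLib.ZJ.good_mono hMR hRg) x.2 r.2
    (by rw [← pow_two]; exact h.2.1.2 rfl _ hr) (by rwa [Subgroup.orderOf_coe])
    (by simpa using congrArg Subtype.val hrx) (fun hh => hy1 ((hπ1 x).2 hh)) (fun q hq => ⟨?_, ?_⟩)
  rotate_left
  · exact (core L).mul_mem (conj_mem (le_normalizer_core L (mul_mem (mul_mem x.2 r.2) (inv_mem x.2))) hq) ((core L).inv_mem hq)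
  · refine mem_map_conj.2 ?_
    have h1 : (x : G)⁻¹ * q * x ∈ Subgroup.normalizer (V : Set G) :=
      h.2.2.1 (core_le_syl hU (conj_mem' (le_normalizer_core L x.2) hq))
    rw [show (x : G)⁻¹ * ((x : G) * r * (x : G)⁻¹ * q * ((x : G) * r * (x : G)⁻¹)⁻¹ * q⁻¹) * x =
      (r : G) * (((x : G)⁻¹ * q * x) * (r : G)⁻¹ * ((x : G)⁻¹ * q * x)⁻¹) by group]
    exact V.mul_mem hr (conj_mem h1 (inv_mem hr))
  have h4c : 4 * c' ≤ m := by
    have h1 := CfsgLib.ZJ.card_sup_mul_card_inf_of_le_normalizer (A := M)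
      (B := R ⊓ Subgroup.centralizer (V : Set G)) (fun a ha => mem_normalizer_of_conj fun v hv => by
        rw [CfsgLib.ZJ.good_commute hRg (hMR ha) hv.1, mul_inv_cancel_right]; exact hv)
    have h2 : Nat.card ↥(M ⊔ R ⊓ Subgroup.centralizer (V : Set G)) ≤ m :=
      hRm ▸ Subgroup.card_le_of_le (sup_le hMR inf_le_left)
    have h3 : Nat.card ↥(M ⊓ (R ⊓ Subgroup.centralizer (V : Set G))) ≤
        Nat.card ↥(M ⊓ Subgroup.centralizer ({(r : G)} : Set G)) :=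
      Subgroup.card_le_of_le fun z hz => ⟨hz.1, Subgroup.mem_centralizer_singleton_iff.2
        (mem_centralizer.1 hz.2.2 _ hr).symm⟩
    have h4 : Nat.card M * (4 * c') ≤ Nat.card M * m := by
      calc Nat.card M * (4 * c') = 4 * (Nat.card M * c') := by ring
        _ ≤ 4 * (m * Nat.card ↥(M ⊓ Subgroup.centralizer ({(r : G)} : Set G))) := by
          rw [← h1]; exact Nat.mul_le_mul_left _ (Nat.mul_le_mul h2 h3)
        _ ≤ m * Nat.card M := by rw [mul_left_comm]; exact Nat.mul_le_mul_left _ hfour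
        _ = _ := mul_comm _ _
    exact Nat.le_of_mul_le_mul_left h4 Nat.card_pos
  have hc0 : 0 < c := Nat.card_pos
  have hc0' : 0 < c' := Nat.card_pos
  have h2c : 2 * c ≤ c' := by
    have h5 : m * (4 * c) ≤ m * (2 * c') := by
      calc m * (4 * c) = 4 * (m * c) := by ring
        _ ≤ 4 * (2 * c' ^ 2) := Nat.mul_le_mul_left _ hi
        _ = 2 * c' * (4 * c') := by ring
        _ ≤ 2 * c' * m := Nat.mul_le_mul_left _ h4c
        _ = m * (2 * c') := by ring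
    have := Nat.le_of_mul_le_mul_left h5 (Nat.card_pos : 0 < m)
    omega
  have h6 : m * c' ≤ c * c' := by
    calc m * c' ≤ 2 * c ^ 2 := hii
      _ = c * (2 * c) := by ring
      _ ≤ c * c' := Nat.mul_le_mul_left _ h2c
  have := Nat.le_of_mul_le_mul_right h6 hc0'
  omega

/-- A module with the squared bound commutes with its conjugates. -/
theorem commute_conj {L U V : Subgroup G} (hL : Loc L) (hU : IsSyl L U) (h : Sq U V) {l : G} (hl : l ∈ L)
    {v w : G} (hv : v ∈ V) (hw : w ∈ V) : v * (l * w * l⁻¹) = l * w * l⁻¹ * v := by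
  have hVQ := le_core_of_sq hL hU h
  set V' := V.map (MulAut.conj l).toMonoidHom with hV'
  have hV'Q : V' ≤ core L := by
    rintro _ ⟨u, hu, rfl⟩
    exact conj_mem (le_normalizer_core L hl) (hVQ hu)
  have h1 := h.bound_of_good (hV'Q.trans (core_le_syl hU)) (CfsgLib.ZJ.good_map _ h.2.1)
  have h2 := (h.map_conj l).bound_of_good (R := V)
    (fun u hu => mem_map_conj.2 (core_le_syl hU (conj_mem' (le_normalizer_core L hl) (hVQ hu)))) h.2.1
  rw [hV', card_map_conj] at h1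
  rw [card_map_conj] at h2
  set c := Nat.card ↥(V ⊓ Subgroup.centralizer (V' : Set G)) with hc
  set c' := Nat.card ↥(V' ⊓ Subgroup.centralizer (V : Set G)) with hc'
  set n := Nat.card V with hn
  have hn0 : 0 < n := Nat.card_pos
  have hc0 : 0 < c := Nat.card_pos
  have hc0' : 0 < c' := Nat.card_pos
  have hcn : c ≤ n := Subgroup.card_le_of_le inf_le_left
  have hi : n * c ≤ c' ^ 2 := Nat.le_of_mul_le_mul_left (by rw [← mul_assoc, ← pow_two]; exact h1) hn0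
  have hii : n * c' ≤ c ^ 2 := Nat.le_of_mul_le_mul_left (by rw [← mul_assoc, ← pow_two]; exact h2) hn0
  have hc'n : c' ≤ n := (Subgroup.card_le_of_le inf_le_left).trans (card_map_conj _ _).le
  have hcc : n ^ 2 ≤ c * c' := by
    have h5 : c * c' * n ^ 2 ≤ c * c' * (c * c') := by
      calc c * c' * n ^ 2 = (n * c) * (n * c') := by ring
        _ ≤ c' ^ 2 * c ^ 2 := Nat.mul_le_mul hi hii
        _ = _ := by ring
    exact Nat.le_of_mul_le_mul_left h5 (Nat.mul_pos hc0 hc0')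
  have hcV : n ≤ c := Nat.le_of_mul_le_mul_left (by
    calc n * n = n ^ 2 := (pow_two n).symm
      _ ≤ c * c' := hcc
      _ ≤ c * n := Nat.mul_le_mul_left _ hc'n
      _ = n * c := mul_comm _ _) hn0
  have heq := Subgroup.eq_of_le_of_card_ge (inf_le_left : V ⊓ Subgroup.centralizer (V' : Set G) ≤ V) hcV
  have hvc : v ∈ V ⊓ Subgroup.centralizer (V' : Set G) := heq.symm ▸ hv
  exact (mem_centralizer.1 hvc.2 _ ⟨w, hw, rfl⟩).symm

end CfsgLib.SolvFactor
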