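import Cfsg.Agent.SolvFactor.Central
import Cfsg.Agent.PCore.Descent
import Cfsg.Agent.PCore.AxB

/-!
A solvable `S₄`-free group of characteristic `2` is generated by the centralizer of `Ω₁(Z(X(U)))` and the
normalizer of the Thompson subgroup of its Sylow `2`-subgroup `U`.
-/

set_option autoImplicit false
set_option linter.unusedSectionVars false
set_option linter.style.haveILetI false

namespace CfsgLib.SolvFactor

open CfsgLib.ZJ (Good maxGood)
open scoped commutatorElement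

variable {G : Type*} [Group G] [Finite G]

theorem conj_mem_self {H : Type*} [Group H] {K : Subgroup H} {l z : H} (hl : l ∈ K) (hz : z ∈ K) :
    l * z * l⁻¹ ∈ K := K.mul_mem (K.mul_mem hl hz) (K.inv_mem hl)

theorem div_mem_self {H : Type*} [Group H] {K : Subgroup H} {l z : H} (hl : l ∈ K) (hz : z ∈ K) :
    l * z⁻¹ ∈ K := K.mul_mem hl (K.inv_mem hz)

/-- The target subgroup of the generation theorem. -/
def gen (L U : Subgroup G) : Subgroup G :=
  Subgroup.centralizer (Om (X U) : Set G) ⊔ (L ⊓ Subgroup.normalizer (CfsgLib.ZJ.J 2 true U : Set G))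

theorem gen_mono {L L' U : Subgroup G} (h : L' ≤ L) : gen L' U ≤ gen L U :=
  sup_le_sup_left (inf_le_inf_right _ h) _

theorem IsSyl.le_gen {L U : Subgroup G} (hU : IsSyl L U) : U ≤ gen L U := fun _ hu =>
  Subgroup.mem_sup_right ⟨hU.le hu, CfsgLib.ZJ.normalizer_le_normalizer_J U (Subgroup.le_normalizer hu)⟩

theorem IsSyl.of_le {L L' U : Subgroup G} (hU : IsSyl L U) (hUL : U ≤ L') (hle : L' ≤ L) : IsSyl L' U :=
  ⟨hUL, hU.isPGroup, fun P hP hP2 hUP => hU.2.2 P (hP.trans hle) hP2 hUP⟩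

/-- The centralizer of a module lying in the core inherits the hypotheses. -/
theorem loc_centralizer {L V : Subgroup G} (hL : Loc L) (hV : IsPGroup 2 V) (hVQ : V ≤ core L) :
    Loc (L ⊓ Subgroup.centralizer (V : Set G)) := by
  haveI : Fact (Nat.Prime 2) := ⟨Nat.prime_two⟩
  set L₂ := L ⊓ Subgroup.centralizer (V : Set G) with hL₂
  set K₂ := core L ⊓ Subgroup.centralizer (V : Set G) with hK₂
  have hK₂c : K₂ ≤ core L₂ := le_core (inf_le_inf_right _ (core_le L))
    (fun l hl => mem_normalizer_of_conj fun z hz => ⟨conj_mem (le_normalizer_core L hl.1) hz.1,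
      conj_mem_self hl.2 hz.2⟩) ((core_isPGroup L).to_le inf_le_left)
  refine ⟨?_, fun g hg hc => ?_, fun hi => hL.s4free ?_⟩
  · haveI := hL.solv
    exact Group.isSolvable_of_isSolvable_injective (Subgroup.inclusion_injective (inf_le_left : L₂ ≤ L))
  swap
  · exact involves_of_injective _ (Subgroup.inclusion_injective (inf_le_left : L₂ ≤ L)) hi
  set C' := L₂ ⊓ Subgroup.centralizer (core L₂ : Set G) with hC'
  have hC'2 : IsPGroup 2 C' := CfsgLib.PCore.isPGroup_of_forall_coprime C' fun x hx hxo => by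
    have h1 : Subgroup.zpowers x ≤ Subgroup.centralizer (core L : Set G) := by
      refine CfsgLib.PCore.thompson_AxB (A := V) hV ?_ (core_isPGroup L) ?_ ?_ ?_ ?_
      · rw [Nat.card_zpowers]; exact hxo
      · intro v hv z hz
        obtain ⟨i, rfl⟩ := Subgroup.mem_zpowers_iff.1 hz
        exact (mem_centralizer.1 (Subgroup.zpow_mem _ hx.1.2 i) v hv)
      · exact (hVQ.trans (core_le L)).trans (le_normalizer_core L)
      · exact Subgroup.zpowers_le.2 (le_normalizer_core L hx.1.1)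
      · refine Subgroup.zpowers_le.2 (mem_centralizer.2 fun q hq => ?_)
        exact mem_centralizer.1 hx.2 q (hK₂c hq)
    have h2 : x ∈ core L := hL.char2 x hx.1.1 (mem_centralizer.1 (h1 (Subgroup.mem_zpowers x)))
    obtain ⟨k, hk⟩ := core_isPGroup L ⟨x, h2⟩
    exact orderOf_eq_one_iff.1 (Nat.eq_one_of_dvd_coprimes (hxo.pow_right k) dvd_rfl
      (orderOf_dvd_of_pow_eq_one (congrArg Subtype.val hk)))
  refine le_core (L := L₂) inf_le_left (fun l hl => mem_normalizer_of_conj fun z hz => ⟨?_, ?_⟩) hC'2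
    ⟨hg, mem_centralizer.2 hc⟩
  · exact L₂.mul_mem (L₂.mul_mem hl hz.1) (L₂.inv_mem hl)
  · refine mem_centralizer_conj.2 fun q hq => ?_
    have h1 := mem_centralizer_conj.1 hz.2 _ (conj_mem' (le_normalizer_core L₂ hl) hq)
    calc l * z * l⁻¹ * q * (l * z * l⁻¹)⁻¹ = l * (z * (l⁻¹ * q * l) * z⁻¹) * l⁻¹ := by group
      _ = q := by rw [h1]; group

theorem le_gen : ∀ (n : ℕ) (L U : Subgroup G), Nat.card L = n → Loc L → IsSyl L U → L ≤ gen L U := by
  classical
  haveI : Fact (Nat.Prime 2) := ⟨Nat.prime_two⟩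
  intro n
  induction n using Nat.strong_induction_on with
  | _ n ih =>
  intro L U hn hL hU
  subst hn
  by_cases hst : EStab U
  · intro l hl
    obtain ⟨c, hc, m, hm, -, rfl⟩ := exists_factor hL hU hl
    refine mul_mem (Subgroup.mem_sup_left ?_) (Subgroup.mem_sup_right ⟨hm.1, hm.2.2⟩)
    rwa [X_eq_self hst]
  obtain ⟨V, hV, hUV⟩ : ∃ V, Sq U V ∧ ¬ U ≤ Subgroup.centralizer (V : Set G) := by
    simpa [EStab] using hst
  set J := CfsgLib.ZJ.J 2 true U with hJ
  have hJU : J ≤ U := CfsgLib.ZJ.J_le U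
  have hQU := core_le_syl hU
  by_cases hJQ : J ≤ core L
  · intro l hl
    refine Subgroup.mem_sup_right ⟨hl, ?_⟩
    rw [← CfsgLib.ZJ.J_eq_of_le hJQ hQU]
    exact CfsgLib.ZJ.normalizer_le_normalizer_J _ (le_normalizer_core L hl)
  set T := gen L U with hT
  have hUT : U ≤ T := hU.le_gen
  have hsub : ∀ L' : Subgroup G, L' ≤ L → U ≤ L' → L' ≠ L → L' ≤ T := fun L' hle hUL hne =>
    (ih _ (lt_of_le_of_ne (Subgroup.card_le_of_le hle)
      fun e => hne (Subgroup.eq_of_le_of_card_ge hle e.ge)) L' U rfl (hL.of_le hle (hQU.trans hUL))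
      (hU.of_le hUL hle)).trans (gen_mono hle)
  have hCVT : L ⊓ Subgroup.centralizer (V : Set G) ≤ T := by
    set L₂ := L ⊓ Subgroup.centralizer (V : Set G) with hL₂
    have hlt : Nat.card L₂ < Nat.card L := lt_of_le_of_ne (Subgroup.card_le_of_le inf_le_left) fun e =>
      hUV fun u hu => ((Subgroup.eq_of_le_of_card_ge (inf_le_left : L₂ ≤ L) e.ge).ge (hU.le hu)).2
    have hU₂ : IsSyl L₂ (U ⊓ Subgroup.centralizer (V : Set G)) := by
      have h1 : IsSyl (L ⊓ Subgroup.normalizer (V : Set G)) U := hU.of_le (le_inf hU.le hV.2.2.1) inf_le_left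
      have h2 := h1.inf_normal (N := L₂) (le_inf inf_le_left (inf_le_right.trans (Subgroup.centralizer_le_normalizer _)))
        (fun l hl => mem_normalizer_of_conj fun z hz => ⟨conj_mem_self hl.1 hz.1,
          mem_centralizer_conj.2 fun v hv => by
            have h3 := mem_centralizer_conj.1 hz.2 _ (conj_mem' hl.2 hv)
            calc l * z * l⁻¹ * v * (l * z * l⁻¹)⁻¹ = l * (z * (l⁻¹ * v * l) * z⁻¹) * l⁻¹ := by group
              _ = v := by rw [h3]; group⟩)
      rwa [hL₂, ← inf_assoc, inf_eq_left.2 hU.le] at h2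
    have hX' : X (U ⊓ Subgroup.centralizer (V : Set G)) = X U :=
      X_eq_of_le (le_inf (X_le U) hV.X_le_centralizer) inf_le_left
    have hJ' : CfsgLib.ZJ.J 2 true (U ⊓ Subgroup.centralizer (V : Set G)) = J :=
      CfsgLib.ZJ.J_eq_of_le (le_inf hJU hV.J_le_centralizer) inf_le_left
    have h1 := ih _ hlt L₂ (U ⊓ Subgroup.centralizer (V : Set G)) rfl
      (loc_centralizer hL (good_isPGroup hV.2.1) (le_core_of_sq hL hU hV)) hU₂
    refine h1.trans ?_
    rw [hT, gen, gen, hX', hJ']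
    exact sup_le_sup_left (inf_le_inf_right _ inf_le_left) _
  -- modulo the core
  haveI := Cfsg.pCore_normal 2 L
  set Q' := Cfsg.pCore 2 L with hQ'
  set π := QuotientGroup.mk' Q' with hπ
  haveI := hL.solv
  haveI : Group.IsSolvable (L ⧸ Q') := Group.isSolvable_of_surjective (QuotientGroup.mk'_surjective _)
  have hπ1 : ∀ l : L, π l = 1 ↔ (l : G) ∈ core L := fun l => by
    rw [hπ, QuotientGroup.mk'_apply, QuotientGroup.eq_one_iff]
    exact ⟨fun hh => ⟨l, hh, rfl⟩, fun ⟨w, hw, e⟩ => (Subtype.ext e : w = l) ▸ hw⟩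
  have hOH : Cfsg.pCore 2 (L ⧸ Q') = ⊥ := CfsgLib.PCore.pCore_quotient
  set F := Cfsg.pPrimeCore 2 (L ⧸ Q') with hF
  haveI hFn : F.Normal := Cfsg.pPrimeCore_normal 2 _
  set Ub := (U.subgroupOf L).map π with hUb
  -- preimages
  have hpre : ∀ (W : Subgroup (L ⧸ Q')) (l : L), (l : G) ∈ (W.comap π).map L.subtype ↔ π l ∈ W := fun W l =>
    ⟨fun ⟨w, hw, e⟩ => (Subtype.ext e : w = l) ▸ hw, fun h => ⟨l, h, rfl⟩⟩
  have hpreU : ∀ W : Subgroup (L ⧸ Q'), Ub ≤ W → U ≤ (W.comap π).map L.subtype := fun W hW u hu =>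
    (hpre W ⟨u, hU.le hu⟩).2 (hW ⟨_, hu, rfl⟩)
  by_cases hFU : F ⊔ Ub ≠ ⊤
  · set L₀ := ((F ⊔ Ub).comap π).map L.subtype with hL₀
    have hL₀ne : L₀ ≠ L := by
      intro e
      refine hFU (eq_top_iff.2 fun h _ => ?_)
      obtain ⟨l, rfl⟩ := QuotientGroup.mk'_surjective Q' h
      exact (hpre _ l).1 (e.ge l.2)
    set πF := QuotientGroup.mk' F with hπF
    set E := (Cfsg.pCore 2 ((L ⧸ Q') ⧸ F)).comap πF with hE
    haveI hEn : E.Normal := (Cfsg.pCore_normal 2 _).comap _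
    have hEFU : E ≤ F ⊔ Ub := by
      intro e he
      let S₂ : Sylow 2 (L ⧸ Q') := hU.sylow.mapSurjective (QuotientGroup.mk'_surjective Q')
      let S₃ : Sylow 2 ((L ⧸ Q') ⧸ F) := S₂.mapSurjective (QuotientGroup.mk'_surjective F)
      have h1 : πF e ∈ (S₃ : Subgroup ((L ⧸ Q') ⧸ F)) := CfsgLib.PCore.pCore_le_sylow S₃ he
      obtain ⟨u, hu, hue⟩ := h1
      have h2 : u⁻¹ * e ∈ F := QuotientGroup.eq.1 hue
      rw [show e = u * (u⁻¹ * e) by group]
      exact mul_mem (Subgroup.mem_sup_right hu) (Subgroup.mem_sup_left h2)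
    set D := (E.comap π).map L.subtype with hD
    have hDn : L ≤ Subgroup.normalizer (D : Set G) := fun l hl => mem_normalizer_of_conj (by
      rintro _ ⟨w, hw, rfl⟩
      exact ⟨⟨l, hl⟩ * w * ⟨l, hl⟩⁻¹, (hEn.comap π).conj_mem _ hw _, rfl⟩)
    set N := L ⊓ Subgroup.normalizer ((U ⊓ D : Subgroup G) : Set G) with hN
    have hUN : U ≤ N := le_inf hU.le fun u hu => mem_normalizer_of_conj fun z hz =>
      ⟨conj_mem_self hu hz.1, conj_mem (hDn (hU.le hu)) hz.2⟩
    have hNne : N ≠ L := by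
      intro e
      have hle : U ⊓ D ≤ core L := le_core (inf_le_left.trans hU.le) (fun l hl => (e.ge hl).2)
        (hU.isPGroup.to_le inf_le_left)
      have hD2 : IsSyl D (U ⊓ D) := hU.inf_normal (Subgroup.map_subtype_le _) hDn
      have hQD : core L ≤ D := by
        rintro _ ⟨w, hw, rfl⟩
        refine ⟨w, ?_, rfl⟩
        show π w ∈ E
        rw [hπ, QuotientGroup.mk'_apply, (QuotientGroup.eq_one_iff w).2 hw]
        exact one_mem _
      have heq : U ⊓ D = core L := le_antisymm hle (le_inf hQU hQD)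
      have hodd : ¬ 2 ∣ Nat.card E := by
        have h1 := hD2.sylow.not_dvd_index
        have h2 := Subgroup.card_mul_index (hD2.sylow : Subgroup D)
        have h3 : Nat.card (hD2.sylow : Subgroup D) = Nat.card Q' := by
          show Nat.card ((U ⊓ D).subgroupOf D) = _
          rw [Nat.card_congr (Subgroup.subgroupOfEquivOfLe inf_le_right).toEquiv, heq, core,
            Subgroup.card_map_of_injective L.subtype_injective]
        have h4 : Nat.card D = Nat.card Q' * Nat.card E := by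
          rw [hD, Subgroup.card_map_of_injective L.subtype_injective, CfsgLib.PCore.card_comap_mk' Q' E]
        rw [h3, h4] at h2
        rw [Nat.eq_of_mul_eq_mul_left Nat.card_pos h2] at h1
        exact h1
      have hEF : E ≤ F := CfsgLib.PCore.le_pPrimeCore_of_not_dvd hEn hodd
      have hO : Cfsg.pCore 2 ((L ⧸ Q') ⧸ F) = ⊥ := eq_bot_iff.2 fun z hz => by
        obtain ⟨e, rfl⟩ := QuotientGroup.mk'_surjective F z
        exact Subgroup.mem_bot.2 ((QuotientGroup.eq_one_iff e).2 (hEF hz))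
      haveI : Group.IsSolvable ((L ⧸ Q') ⧸ F) := Group.isSolvable_of_surjective (QuotientGroup.mk'_surjective F)
      rcases subsingleton_or_nontrivial ((L ⧸ Q') ⧸ F) with hs | hs
      · exact hFU (eq_top_iff.2 fun h _ => Subgroup.mem_sup_left
          ((QuotientGroup.eq_one_iff h).1 (Subsingleton.elim _ _)))
      · rcases CfsgLib.PCore.cores_ne_bot_of_isSolvable (p := 2) (G := (L ⧸ Q') ⧸ F) with h | h
        · exact h hO
        · exact h CfsgLib.PCore.pPrimeCore_quotient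
    intro l hl
    obtain ⟨d, hd, m, hm, rfl⟩ := hU.frattini (N := D) (Subgroup.map_subtype_le _) hDn hl
    refine mul_mem (hsub L₀ (Subgroup.map_subtype_le _) (hpreU _ le_sup_right) hL₀ne ?_)
      (hsub N inf_le_left hUN hNne hm)
    exact Subgroup.map_mono (Subgroup.comap_mono hEFU) hd
  -- the minimal case
  push Not at hFU
  set Tb := (T.subgroupOf L).map π with hTb
  have hTmem : ∀ l : L, π l ∈ Tb → (l : G) ∈ T := by
    rintro l ⟨w, hw, e⟩
    have h1 : ((w⁻¹ * l : L) : G) ∈ core L := (hπ1 _).1 (by rw [map_mul, map_inv, e, inv_mul_cancel])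
    have h2 := T.mul_mem (show (w : G) ∈ T from hw) (hUT (hQU h1))
    simpa using h2
  have hUbT : Ub ≤ Tb := Subgroup.map_mono (fun u hu => hUT hu)
  -- proper overgroups of the Sylow subgroup
  have hsubb : ∀ W : Subgroup (L ⧸ Q'), Ub ≤ W → W ≠ ⊤ → W ≤ Tb := by
    intro W hUW hW h hh
    obtain ⟨l, rfl⟩ := QuotientGroup.mk'_surjective Q' h
    refine ⟨l, hsub ((W.comap π).map L.subtype) (Subgroup.map_subtype_le _) (hpreU W hUW) (fun e => hW
      (eq_top_iff.2 fun k _ => ?_)) ((hpre W l).2 hh), rfl⟩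
    obtain ⟨m, rfl⟩ := QuotientGroup.mk'_surjective Q' k
    exact (hpre W m).1 (e.ge m.2)
  set Jb := (J.subgroupOf L).map π with hJb
  have hJbU : Jb ≤ Ub := Subgroup.map_mono (fun u hu => hJU hu)
  have hUb2 : IsPGroup 2 Ub := ((hU.isPGroup.comap_of_injective L.subtype L.subtype_injective)).map π
  have hFUb : F ⊓ Ub = ⊥ := inf_comm F Ub ▸
    CfsgLib.PCore.inf_eq_bot_of_isPGroup_of_coprime hUb2 (CfsgLib.PCore.pPrimeCore_coprime 2 _)
  have hF' : ⁅F, F⁆ ≤ Tb := by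
    refine le_trans le_sup_left (hsubb (⁅F, F⁆ ⊔ Ub) le_sup_right ?_)
    intro e
    haveI : (⁅F, F⁆ : Subgroup (L ⧸ Q')).Normal := Subgroup.commutator_normal F F
    have hFF : F ≤ ⁅F, F⁆ := fun f hf => by
      have h1 : f ∈ Ub ⊔ ⁅F, F⁆ := by rw [sup_comm, e]; trivial
      obtain ⟨u, hu, c, hc, rfl⟩ := CfsgLib.CoprimeAction.exists_mul_of_mem_sup
        (le_top.trans_eq (Subgroup.normalizer_eq_top _).symm) h1
      have hcF : c ∈ F := Subgroup.commutator_le_left F F hc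
      have h2 : u ∈ F ⊓ Ub := ⟨by simpa using mul_mem hf (inv_mem hcF), hu⟩
      rw [hFUb, Subgroup.mem_bot] at h2
      rwa [h2, one_mul]
    have hF0 : F = ⊥ := by
      by_contra hne
      exact absurd (Group.IsSolvable.commutator_lt_of_ne_bot hne) (fun h => h.not_ge hFF)
    have hall := CfsgLib.PLocalBasics.centralizer_pPrimeCore_le 2 CfsgLib.PCore.isPSolvable_of_isSolvable hOH
    rw [← hF, hF0] at hall
    refine hJQ fun z hz => ?_
    refine (hπ1 ⟨z, hU.le (hJU hz)⟩).1 (Subgroup.mem_bot.1 (hall ?_))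
    exact Subgroup.mem_centralizer_iff.2 fun f hf => by
      rw [Subgroup.mem_bot.1 (show f ∈ (⊥ : Subgroup _) from hf)]; simp
  have hCJ : F ⊓ Subgroup.centralizer (Jb : Set (L ⧸ Q')) ≤ Tb := by
    rintro f ⟨-, hfJ⟩
    obtain ⟨l, rfl⟩ := QuotientGroup.mk'_surjective Q' f
    set N := L ⊓ Subgroup.normalizer ((J ⊔ core L : Subgroup G) : Set G) with hN
    have hUN : U ≤ N := le_inf hU.le fun u hu => by
      have h1 : u ∈ Subgroup.normalizer (J : Set G) :=
        CfsgLib.ZJ.normalizer_le_normalizer_J U (Subgroup.le_normalizer hu)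
      refine mem_normalizer_of_conj fun z hz => ?_
      have hle : J ⊔ core L ≤ (J ⊔ core L).comap (MulAut.conj u).toMonoidHom :=
        sup_le (fun w hw => Subgroup.mem_sup_left (conj_mem h1 hw))
          (fun w hw => Subgroup.mem_sup_right (conj_mem (le_normalizer_core L (hU.le hu)) hw))
      exact hle hz
    have hNne : N ≠ L := fun e => hJQ (le_sup_left.trans (le_core (sup_le (hJU.trans hU.le) (core_le L))
      (fun m hm => (e.ge hm).2) (hU.isPGroup.to_le (sup_le hJU hQU))))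
    refine ⟨l, hsub N inf_le_left hUN hNne ⟨l.2, mem_normalizer_of_conj fun z hz => ?_⟩, rfl⟩
    have hle : J ⊔ core L ≤ (J ⊔ core L).comap (MulAut.conj (l : G)).toMonoidHom := by
      refine sup_le (fun w hw => ?_) (fun w hw => Subgroup.mem_sup_right (conj_mem (le_normalizer_core L l.2) hw))
      have h1 := mem_centralizer_conj.1 hfJ (π ⟨w, hU.le (hJU hw)⟩) ⟨_, hw, rfl⟩
      rw [← mul_inv_eq_one, ← hπ, ← map_inv, ← map_mul, ← map_mul, ← map_inv, ← map_mul] at h1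
      have h2 : (l : G) * w * (l : G)⁻¹ * w⁻¹ ∈ core L := by simpa using (hπ1 _).1 h1
      show (l : G) * w * (l : G)⁻¹ ∈ J ⊔ core L
      rw [show (l : G) * w * (l : G)⁻¹ = ((l : G) * w * (l : G)⁻¹ * w⁻¹) * w by group]
      exact mul_mem (Subgroup.mem_sup_right h2) (Subgroup.mem_sup_left hw)
    exact hle hz
  set FT := F ⊓ Tb with hFT
  have hFTn : F ≤ Subgroup.normalizer (FT : Set (L ⧸ Q')) := fun f hf => mem_normalizer_of_conj fun z hz => by
    rw [show f * z * f⁻¹ = (f * z * f⁻¹ * z⁻¹) * z by group]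
    refine mul_mem ⟨div_mem_self (conj_mem_self hf hz.1) hz.1, hF' ?_⟩ hz
    rw [← commutatorElement_def]
    exact Subgroup.commutator_mem_commutator hf hz.1
  have hUFT : Ub ≤ Subgroup.normalizer (FT : Set (L ⧸ Q')) := fun u hu => mem_normalizer_of_conj fun z hz =>
    ⟨hFn.conj_mem _ hz.1 u, conj_mem_self (hUbT hu) hz.2⟩
  let Φ : Subgroup (L ⧸ Q') :=
    { carrier := {g | g ∈ Ub ∧ ∀ f ∈ F, g * f * g⁻¹ * f⁻¹ ∈ FT}
      one_mem' := ⟨one_mem _, fun f _ => by simp⟩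
      mul_mem' := fun {g k} hg hk => ⟨mul_mem hg.1 hk.1, fun f hf => by
        rw [show g * k * f * (g * k)⁻¹ * f⁻¹ = (g * (k * f * k⁻¹ * f⁻¹) * g⁻¹) * (g * f * g⁻¹ * f⁻¹) by group]
        exact mul_mem (conj_mem (hUFT hg.1) (hk.2 f hf)) (hg.2 f hf)⟩
      inv_mem' := fun {g} hg => ⟨inv_mem hg.1, fun f hf => by
        rw [show g⁻¹ * f * g⁻¹⁻¹ * f⁻¹ = g⁻¹ * (g * f * g⁻¹ * f⁻¹)⁻¹ * g by group]
        exact conj_mem' (hUFT hg.1) (inv_mem (hg.2 f hf))⟩ }
  have hAΦ : ∀ A ∈ maxGood 2 true U, ∀ a : L, (a : G) ∈ A → π a ∈ Φ := by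
    intro A hA a0 ha0
    refine ⟨⟨a0, hA.1 ha0, rfl⟩, ?_⟩
    set Ab := (A.subgroupOf L).map π with hAb
    have hAbg : Good 2 true Ab := CfsgLib.ZJ.good_map π (good_subgroupOf hA.2.1)
    by_cases hAb1 : Ab = ⊥
    · intro f hf
      have h1 : π a0 ∈ Ab := ⟨a0, ha0, rfl⟩
      rw [hAb1, Subgroup.mem_bot] at h1
      simp [h1]
    let W : Subgroup (L ⧸ Q') :=
      { carrier := {f | f ∈ F ∧ ∀ s ∈ Ab, s * f * s⁻¹ * f⁻¹ ∈ FT}
        one_mem' := ⟨one_mem _, fun s _ => by simp⟩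
        mul_mem' := fun {f k} hf hk => ⟨mul_mem hf.1 hk.1, fun s hs => by
          rw [show s * (f * k) * s⁻¹ * (f * k)⁻¹ = (s * f * s⁻¹ * f⁻¹) * (f * (s * k * s⁻¹ * k⁻¹) * f⁻¹) by group]
          exact mul_mem (hf.2 s hs) (conj_mem (hFTn hf.1) (hk.2 s hs))⟩
        inv_mem' := fun {f} hf => ⟨inv_mem hf.1, fun s hs => by
          rw [show s * f⁻¹ * s⁻¹ * f⁻¹⁻¹ = f⁻¹ * (s * f * s⁻¹ * f⁻¹)⁻¹ * f by group]
          exact conj_mem' (hFTn hf.1) (inv_mem (hf.2 s hs))⟩ }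
    have hFW : F ≤ W := by
      refine oddCore_le hAbg hAb1 fun B hB hBc f hf => ⟨hf.1, fun s hs => ?_⟩
      have hfB : ∀ b ∈ B, b * f = f * b := mem_centralizer.1 hf.2
      by_cases hsB : s ∈ B
      · rw [hfB s hsB]; simp
      obtain ⟨hy1, hy2⟩ := inverted_of_commutator hAbg hB hs hfB
      set y := f⁻¹ * (s * f * s⁻¹) with hy
      have hyF : y ∈ F := mul_mem (inv_mem hf.1) (hFn.conj_mem _ hf.1 s)
      obtain ⟨a, haA, rfl⟩ := hs
      obtain ⟨x, hxo, hxa, hxy⟩ := exists_lift_inverted π (QuotientGroup.mk'_surjective _) a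
        (Subtype.ext (by show (a : G) * a = 1; rw [← pow_two]; exact hA.2.1.2 rfl _ haA))
        (odd_of_mem_oddCore hyF) hy1
      set A₁ := A ⊓ (B.comap π).map L.subtype with hA₁
      have hAL : A ≤ L := hA.1.trans hU.le
      have hmem : ∀ g : L, (g : G) ∈ A₁ ↔ (g : G) ∈ A ∧ π g ∈ B := fun g => by
        rw [hA₁, Subgroup.mem_inf, hpre]
      have hc : Nat.card A ≤ 2 * Nat.card A₁ := card_le_two_mul fun g hg hgn k hk hkn => by
        refine (hmem (⟨g, hAL hg⟩⁻¹ * ⟨k, hAL hk⟩)).2 ⟨mul_mem (inv_mem hg) hk, ?_⟩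
        rw [map_mul, map_inv]
        exact mul_mem_of_card_le_two hB hBc.le (g := π ⟨g, hAL hg⟩) ⟨_, hg, rfl⟩
          (fun hh => hgn ((hmem ⟨g, hAL hg⟩).2 ⟨hg, hh⟩)) ⟨⟨k, hAL hk⟩, hk, rfl⟩
          (fun hh => hkn ((hmem ⟨k, hAL hk⟩).2 ⟨hk, hh⟩))
      have hconj : ∀ b ∈ A₁, ∀ g ∈ Subgroup.zpowers (x : G), g * b * g⁻¹ ∈ U := by
        intro b hb g hg
        obtain ⟨i, rfl⟩ := Subgroup.mem_zpowers_iff.1 hg
        have hb' := (hmem ⟨b, hAL hb.1⟩).1 hb
        have hcomm : Commute (π ⟨b, hAL hb.1⟩) (π x ^ i) :=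
          (show Commute (π ⟨b, hAL hb.1⟩) (π x) by rw [hxy]; exact hy2 _ hb'.2).zpow_right i
        have h1 : π (x ^ i * ⟨b, hAL hb.1⟩ * (x ^ i)⁻¹ * ⟨b, hAL hb.1⟩⁻¹) = 1 := by
          rw [map_mul, map_mul, map_mul, map_inv, map_inv, map_zpow, ← hcomm.eq]; group
        have h2 := U.mul_mem (hQU ((hπ1 _).1 h1)) (hA.1 hb.1)
        simpa using h2
      have hxV := mem_centralizer_of_inverted hL hU hV hA inf_le_left hc haA x.2
        (by rwa [Subgroup.orderOf_coe]) (by simpa using congrArg Subtype.val hxa) hconj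
      have hyT : y ∈ FT := ⟨hyF, x, hCVT ⟨x.2, hxV⟩, hxy⟩
      rw [show π a * f * (π a)⁻¹ * f⁻¹ = f * y * f⁻¹ by rw [hy]; group]
      exact conj_mem (hFTn hf.1) hyT
    exact fun f hf => (hFW hf).2 (π a0) ⟨a0, ha0, rfl⟩
  have hJΦ : Jb ≤ Φ := by
    rintro _ ⟨z, hz, rfl⟩
    have hle : J ≤ (Φ.comap π).map L.subtype := sSup_le fun A hA w hw =>
      ⟨⟨w, hU.le (hA.1 hw)⟩, hAΦ A hA _ hw, rfl⟩
    exact (hpre Φ z).1 (hle hz)
  have hFTb : F ≤ Tb := by
    intro f hf
    obtain ⟨k, hk⟩ := IsPGroup.iff_card.1 (hUb2.to_le hJbU)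
    have hcop : (Nat.card Jb).Coprime (Nat.card FT) := by
      rw [hk]
      exact (((CfsgLib.PCore.pPrimeCore_coprime 2 _).coprime_dvd_left
        (Subgroup.card_dvd_of_le (inf_le_left : FT ≤ F))).symm).pow_left k
    obtain ⟨c, hc, hcf⟩ := CfsgLib.CoprimeAction.exists_mem_centralizer (hJbU.trans hUFT) hcop
      (Or.inr (Group.isSolvable_of_isSolvable_injective FT.subtype_injective)) (fun g hg => (hJΦ hg).2 f hf)
    have h1 := Tb.mul_mem (Tb.inv_mem hc.2) (hCJ ⟨mul_mem hc.1 hf, hcf⟩)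
    simpa using h1
  intro l hl
  refine hTmem ⟨l, hl⟩ ?_
  have : π ⟨l, hl⟩ ∈ F ⊔ Ub := by rw [hFU]; trivial
  exact (sup_le hFTb hUbT) this

end CfsgLib.SolvFactor
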