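import Cfsg.Agent.SolvFactor.Basic
import Cfsg.Agent.InvolveS3.Basic
import Cfsg.Agent.PCore.PSolvable
import Cfsg.Agent.PLocalBasics.DualCore
import Cfsg.Agent.CoprimeAction.Hyperplane

/-!
Actions of `S₄`-free solvable groups on elementary abelian `2`-groups: the squared offender bound.
-/

set_option autoImplicit false
set_option linter.unusedSectionVars false
set_option linter.style.haveILetI false

namespace CfsgLib.SolvFactor

open CfsgLib.ZJ (Good)

variable {G : Type*} [Group G] [Finite G]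

theorem mul_mem_of_card_le_two {H K : Subgroup G} (hle : H ≤ K) (hc : Nat.card K ≤ 2 * Nat.card H) {g h : G}
    (hg : g ∈ K) (hgH : g ∉ H) (hh : h ∈ K) (hhH : h ∉ H) : g⁻¹ * h ∈ H := by
  have h1 := Subgroup.card_mul_index (H.subgroupOf K)
  rw [Nat.card_congr (Subgroup.subgroupOfEquivOfLe hle).toEquiv] at h1
  have h2 : (H.subgroupOf K).index ≤ 2 :=
    Nat.le_of_mul_le_mul_left (by rw [h1]; linarith) (Nat.card_pos (α := H))
  have h3 : (H.subgroupOf K).index ≠ 1 := fun e =>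
    hgH ((Subgroup.subgroupOf_eq_top.1 (Subgroup.index_eq_one.1 e)) hg)
  have h4 : (H.subgroupOf K).index = 2 := by
    have := Subgroup.index_ne_zero_of_finite (H := H.subgroupOf K); omega
  exact (Subgroup.mul_mem_iff_of_index_two h4 (a := (⟨g, hg⟩ : K)⁻¹) (b := ⟨h, hh⟩)).2
    (iff_of_false (fun hi => hgH (inv_mem_iff.1 (show g⁻¹ ∈ H from hi))) hhH)

theorem card_le_two_mul {H K : Subgroup G} (h : ∀ g ∈ K, g ∉ H → ∀ k ∈ K, k ∉ H → g⁻¹ * k ∈ H) :
    Nat.card K ≤ 2 * Nat.card H := by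
  classical
  by_cases hKH : K ≤ H
  · have := Subgroup.card_le_of_le hKH; omega
  obtain ⟨g, hgK, hgH⟩ := SetLike.not_le_iff_exists.1 hKH
  let f : K → H ⊕ H := fun k => if hk : (k : G) ∈ H then Sum.inl ⟨k, hk⟩
    else Sum.inr ⟨g⁻¹ * k, h g hgK hgH k k.2 hk⟩
  have hf : Function.Injective f := by
    intro a b hab
    simp only [f] at hab
    split_ifs at hab with ha hb hb <;> simp at hab
    · exact hab
    · exact hab
  have := Nat.card_le_card_of_injective f hf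
  rw [Nat.card_sum] at this
  omega

theorem pow_mem_cancel {C : Subgroup G} {g : G} (hg : Odd (orderOf g)) {k : ℕ} (h : g ^ 2 ^ k ∈ C) : g ∈ C := by
  obtain ⟨m, hm⟩ := exists_pow_eq_self_of_coprime (x := g) (n := 2 ^ k)
    ((Nat.coprime_two_left.2 hg).pow_left k)
  rw [← hm]; exact C.pow_mem h m

/-- An element whose square and an odd power lie in a subgroup lies in it. -/
theorem mem_of_sq_of_odd {C : Subgroup G} {g : G} {n : ℕ} (hn : Odd n) (h2 : g ^ 2 ∈ C) (hgn : g ^ n ∈ C) :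
    g ∈ C := by
  obtain ⟨m, rfl⟩ := hn
  have := C.mul_mem (C.inv_mem (C.pow_mem h2 m)) hgn
  rwa [← pow_mul, pow_succ, inv_mul_cancel_left] at this

theorem mem_centralizer_singleton {d g : G} :
    g ∈ Subgroup.centralizer ({d} : Set G) ↔ g * d * g⁻¹ = d := by
  rw [Subgroup.mem_centralizer_singleton_iff, conj_eq_iff]

theorem mem_centralizer_singleton' {d g : G} :
    g ∈ Subgroup.centralizer ({d} : Set G) ↔ d * g * d⁻¹ = g := by
  rw [Subgroup.mem_centralizer_singleton_iff, conj_eq_iff, eq_comm]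

theorem fix_comm {K : Subgroup G} (hK : Good 2 true K) {g k : G} (hg : g ∈ Subgroup.normalizer (K : Set G))
    {n : ℕ} (hn : Odd n) (hgn : g ^ n ∈ Subgroup.centralizer (K : Set G)) (hk : k ∈ K)
    (h : g * (g * k * g⁻¹ * k⁻¹) * g⁻¹ = g * k * g⁻¹ * k⁻¹) : g * k * g⁻¹ = k := by
  set u := g * k * g⁻¹ * k⁻¹ with hu
  have huK : u ∈ K := mul_mem (conj_mem hg hk) (inv_mem hk)
  have key : ∀ i : ℕ, g ^ i * k * (g ^ i)⁻¹ = u ^ i * k := by
    intro i
    induction i with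
    | zero => simp
    | succ i ih =>
      calc g ^ (i + 1) * k * (g ^ (i + 1))⁻¹ = g * (g ^ i * k * (g ^ i)⁻¹) * g⁻¹ := by rw [pow_succ']; group
        _ = (g * u * g⁻¹) ^ i * (u * k) := by rw [ih, conj_pow, hu]; group
        _ = u ^ (i + 1) * k := by rw [h, pow_succ, ← mul_assoc]
  have h1 := key n
  rw [mem_centralizer_conj.1 hgn k hk, right_eq_mul] at h1
  obtain ⟨m, rfl⟩ := hn
  rw [pow_succ, pow_mul, hK.2 rfl u huK, one_pow, one_mul] at h1
  rw [hu, mul_inv_eq_one] at h1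
  exact h1

/-- A fixed point free action of order three inverted by a `2`-element is impossible. -/
theorem false_of_three {L V : Subgroup G} (hS4 : ¬ Cfsg.Involves (Equiv.Perm (Fin 4)) L) (hVL : V ≤ L)
    (hV : Good 2 true V) {y t : G} (hyL : y ∈ L) (htL : t ∈ L) (hyN : y ∈ Subgroup.normalizer (V : Set G))
    (htN : t ∈ Subgroup.normalizer (V : Set G)) (ht : ∃ k, t ^ 2 ^ k = 1)
    (hy3 : y ^ 3 ∈ Subgroup.centralizer (V : Set G)) (hy : y ∉ Subgroup.centralizer (V : Set G))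
    (hty : t * y * t⁻¹ * y ∈ Subgroup.centralizer (V : Set G)) : False := by
  set H := L ⊓ Subgroup.normalizer (V : Set G) with hH
  have hVH : V ≤ H := le_inf hVL Subgroup.le_normalizer
  haveI : (V.subgroupOf H).Normal := Subgroup.normal_subgroupOf_of_le_normalizer inf_le_right
  have hC : ∀ g : H, g ∈ Subgroup.centralizer ((V.subgroupOf H : Subgroup H) : Set H) ↔
      (g : G) ∈ Subgroup.centralizer (V : Set G) := fun g => by
    rw [mem_centralizer, mem_centralizer]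
    exact ⟨fun h v hv => congrArg Subtype.val (h ⟨v, hVH hv⟩ hv), fun h v hv => Subtype.ext (h v hv)⟩
  obtain ⟨k, hk⟩ := ht
  refine hS4 (involves_of_injective _ (Subgroup.inclusion_injective (inf_le_left : H ≤ L))
    (CfsgLib.InvolveS3.involves_of_elementary (V.subgroupOf H)
      (fun a ha b hb => Subtype.ext (CfsgLib.ZJ.good_commute hV ha hb))
      (fun a ha => Subtype.ext (by
        show (a : G) * a = 1
        rw [← pow_two]; exact hV.2 rfl _ ha))
      (γ := ⟨y, hyL, hyN⟩) (τ := ⟨t, htL, htN⟩) ((hC _).2 hy3) (fun h => hy ((hC _).1 h))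
      ⟨k, Subtype.ext hk⟩ ((hC _).2 hty)))

/-- A `2`-element inverting a nontrivial odd order action moves at least three quarters. -/
theorem four {L K : Subgroup G} (hS4 : ¬ Cfsg.Involves (Equiv.Perm (Fin 4)) L) (hKL : K ≤ L)
    (hK : Good 2 true K) {x r : G} (hxL : x ∈ L) (hrL : r ∈ L) (hxN : x ∈ Subgroup.normalizer (K : Set G))
    (hrN : r ∈ Subgroup.normalizer (K : Set G)) {n : ℕ} (hn : Odd n)
    (hxn : x ^ n ∈ Subgroup.centralizer (K : Set G)) (hr : ∃ k, r ^ 2 ^ k = 1)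
    (hinv : r * x * r⁻¹ * x ∈ Subgroup.centralizer (K : Set G)) (hx : x ∉ Subgroup.centralizer (K : Set G)) :
    4 * Nat.card ↥(K ⊓ Subgroup.centralizer ({r} : Set G)) ≤ Nat.card K := by
  classical
  haveI : Fact (Nat.Prime 2) := ⟨Nat.prime_two⟩
  set D := K ⊓ Subgroup.centralizer ({r} : Set G) with hD
  by_contra hlt
  push Not at hlt
  have hK2 : IsPGroup 2 K := fun a => ⟨1, Subtype.ext (by rw [pow_one]; exact hK.2 rfl _ a.2)⟩
  have hle2 : Nat.card K ≤ 2 * Nat.card D := by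
    obtain ⟨i, hi⟩ := IsPGroup.iff_card.1 hK2
    obtain ⟨j, hj⟩ := IsPGroup.iff_card.1 (hK2.to_le (inf_le_left : D ≤ K))
    rw [hi, hj] at hlt ⊢
    rw [show 4 * 2 ^ j = 2 ^ (j + 2) by ring] at hlt
    have := (Nat.pow_lt_pow_iff_right (by norm_num)).1 hlt
    rw [show 2 * 2 ^ j = 2 ^ (j + 1) by ring]
    exact Nat.pow_le_pow_right (by norm_num) (by omega)
  set D' := D.map (MulAut.conj x).toMonoidHom with hD'
  have hD'K : D' ≤ K := by rintro _ ⟨d, hd, rfl⟩; exact conj_mem hxN hd.1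
  -- the commutator map
  let δ : K →* G :=
    { toFun := fun k => x * k * x⁻¹ * (k : G)⁻¹
      map_one' := by simp
      map_mul' := fun a b => by
        have e : x * b * x⁻¹ * (a : G)⁻¹ = (a : G)⁻¹ * (x * b * x⁻¹) :=
          CfsgLib.ZJ.good_commute hK (conj_mem hxN b.2) (inv_mem a.2)
        have e2 : (b : G)⁻¹ * (a : G)⁻¹ = (a : G)⁻¹ * (b : G)⁻¹ :=
          CfsgLib.ZJ.good_commute hK (inv_mem b.2) (inv_mem a.2)
        calc x * ((a * b : K) : G) * x⁻¹ * ((a * b : K) : G)⁻¹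
            = x * a * x⁻¹ * (x * b * x⁻¹) * ((b : G)⁻¹ * (a : G)⁻¹) := by simp [mul_assoc]
          _ = x * a * x⁻¹ * (x * b * x⁻¹ * (a : G)⁻¹) * (b : G)⁻¹ := by rw [e2]; group
          _ = x * a * x⁻¹ * (a : G)⁻¹ * (x * b * x⁻¹ * (b : G)⁻¹) := by rw [e]; group }
  have hker : (D ⊓ D' : Subgroup G) ≤ δ.ker.map K.subtype := by
    rintro d ⟨hd, hd'⟩
    refine ⟨⟨d, hd.1⟩, MonoidHom.mem_ker.2 ?_, rfl⟩
    show x * d * x⁻¹ * d⁻¹ = 1
    rw [mul_inv_eq_one]
    have hdr := mem_centralizer_singleton'.1 hd.2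
    have hd1 := mem_centralizer_singleton'.1 (mem_map_conj.1 hd').2
    have hxd : x⁻¹ * d * x ∈ K := conj_mem' hxN hd.1
    have hcc := mem_centralizer_conj.1 hinv (x⁻¹ * d * x) hxd
    have e : (r * x * r⁻¹ * x) * (x⁻¹ * d * x) * (r * x * r⁻¹ * x)⁻¹ = r * x * (r⁻¹ * d * r) * x⁻¹ * r⁻¹ := by group
    have hrd : r⁻¹ * d * r = d := by
      calc r⁻¹ * d * r = r⁻¹ * (r * d * r⁻¹) * r := by rw [hdr]
        _ = d := by group
    rw [e, hrd] at hcc
    have h5 : x * d * x⁻¹ = r⁻¹ * (x⁻¹ * d * x) * r := by rw [← hcc]; group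
    have hrx : r⁻¹ * (x⁻¹ * d * x) * r = x⁻¹ * d * x := by
      calc r⁻¹ * (x⁻¹ * d * x) * r = r⁻¹ * (r * (x⁻¹ * d * x) * r⁻¹) * r := by rw [hd1]
        _ = x⁻¹ * d * x := by group
    rw [hrx] at h5
    refine mem_centralizer_singleton.1 (mem_of_sq_of_odd hn ?_
      (mem_centralizer_singleton.2 (mem_centralizer_conj.1 hxn d hd.1)))
    rw [mem_centralizer_singleton]
    calc x ^ 2 * d * (x ^ 2)⁻¹ = x * (x * d * x⁻¹) * x⁻¹ := by rw [pow_two]; group
      _ = d := by rw [h5]; group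
  have hI : Nat.card δ.range ≤ 4 := by
    have h1 := Subgroup.card_eq_card_quotient_mul_card_subgroup δ.ker
    rw [Nat.card_congr (QuotientGroup.quotientKerEquivRange δ).toEquiv] at h1
    have h2 := CfsgLib.ZJ.card_sup_mul_card_inf_of_le_normalizer (A := D) (B := D')
      (fun d hd => mem_normalizer_of_conj fun v hv => by
        rw [CfsgLib.ZJ.good_commute hK hd.1 (hD'K hv), mul_inv_cancel_right]; exact hv)
    have h3 := Subgroup.card_le_of_le (sup_le inf_le_left hD'K : D ⊔ D' ≤ K)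
    have h4 : Nat.card ↥(D ⊓ D') ≤ Nat.card δ.ker :=
      (Subgroup.card_le_of_le hker).trans (Subgroup.card_map_of_injective K.subtype_injective).le
    have h5 : Nat.card D' = Nat.card D := card_map_conj D x
    rw [h5] at h2
    have hK0 : 0 < Nat.card δ.ker := Nat.card_pos
    have h6 : Nat.card K * (Nat.card δ.range * Nat.card δ.ker) ≤ Nat.card K * (4 * Nat.card δ.ker) := by
      rw [← h1]
      calc Nat.card K * Nat.card K ≤ (2 * Nat.card D) * (2 * Nat.card D) := Nat.mul_le_mul hle2 hle2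
        _ = 4 * (Nat.card ↥(D ⊔ D') * Nat.card ↥(D ⊓ D')) := by rw [h2]; ring
        _ ≤ 4 * (Nat.card K * Nat.card δ.ker) := Nat.mul_le_mul_left _ (Nat.mul_le_mul h3 h4)
        _ = _ := by ring
    exact Nat.le_of_mul_le_mul_right (Nat.le_of_mul_le_mul_left h6 Nat.card_pos) hK0
  have hIK : δ.range ≤ K := by
    rintro _ ⟨k, rfl⟩
    exact mul_mem (conj_mem hxN k.2) (inv_mem k.2)
  have hIx : ∀ u ∈ δ.range, x * u * x⁻¹ ∈ δ.range := by
    rintro _ ⟨k, rfl⟩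
    refine ⟨⟨x * k * x⁻¹, conj_mem hxN k.2⟩, ?_⟩
    show x * (x * k * x⁻¹) * x⁻¹ * (x * k * x⁻¹)⁻¹ = x * (x * k * x⁻¹ * (k : G)⁻¹) * x⁻¹
    group
  have hIxi : ∀ (i : ℕ), ∀ u ∈ δ.range, x ^ i * u * (x ^ i)⁻¹ ∈ δ.range := by
    intro i
    induction i with
    | zero => simp
    | succ i ih =>
      intro u hu
      rw [show x ^ (i + 1) * u * (x ^ (i + 1))⁻¹ = x * (x ^ i * u * (x ^ i)⁻¹) * x⁻¹ by rw [pow_succ']; group]
      exact hIx _ (ih u hu)
  -- the cube fixes the image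
  have h3 : ∀ u ∈ δ.range, x ^ 3 * u * (x ^ 3)⁻¹ = u := by
    intro u hu
    by_cases hu1 : u = 1
    · simp [hu1]
    have hfix : ∃ d, 1 ≤ d ∧ d ≤ 3 ∧ x ^ d * u * (x ^ d)⁻¹ = u := by
      let f : Option (Fin 4) → δ.range := fun o => o.elim 1 fun i => ⟨_, hIxi i u hu⟩
      have hni : ¬ Function.Injective f := fun hf => by
        have := Nat.card_le_card_of_injective f hf
        simp only [Nat.card_eq_fintype_card, Fintype.card_option, Fintype.card_fin] at this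
        omega
      obtain ⟨o, o', he, hne⟩ := Function.not_injective_iff.1 hni
      have hne1 : ∀ i : Fin 4, x ^ (i : ℕ) * u * (x ^ (i : ℕ))⁻¹ ≠ 1 := fun i e => hu1 (conj_eq_one_iff.1 e)
      have step : ∀ i j : Fin 4, (i : ℕ) < j →
          x ^ (i : ℕ) * u * (x ^ (i : ℕ))⁻¹ = x ^ (j : ℕ) * u * (x ^ (j : ℕ))⁻¹ →
          ∃ d, 1 ≤ d ∧ d ≤ 3 ∧ x ^ d * u * (x ^ d)⁻¹ = u := by
        intro i j hij e
        refine ⟨(j : ℕ) - i, by omega, by omega, ?_⟩
        have hj : x ^ (j : ℕ) = x ^ (i : ℕ) * x ^ ((j : ℕ) - i) := by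
          rw [← pow_add]; congr 1; omega
        rw [hj, mul_inv_rev] at e
        exact (mul_left_cancel (mul_right_cancel (e.trans (by group :
          x ^ (i : ℕ) * x ^ ((j : ℕ) - i) * u * ((x ^ ((j : ℕ) - i))⁻¹ * (x ^ (i : ℕ))⁻¹) =
            x ^ (i : ℕ) * (x ^ ((j : ℕ) - i) * u * (x ^ ((j : ℕ) - i))⁻¹) * (x ^ (i : ℕ))⁻¹)))).symm
      rcases o with _ | i <;> rcases o' with _ | j
      · exact absurd rfl hne
      · exact absurd (congrArg Subtype.val he).symm (hne1 j)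
      · exact absurd (congrArg Subtype.val he) (hne1 i)
      · rcases lt_trichotomy (i : ℕ) j with h | h | h
        · exact step i j h (congrArg Subtype.val he)
        · exact absurd (congrArg some (Fin.ext h)) hne
        · exact step j i h (congrArg Subtype.val he).symm
    obtain ⟨d, hd1, hd3, hd⟩ := hfix
    rw [← mem_centralizer_singleton] at hd ⊢
    have hxnu : x ^ n ∈ Subgroup.centralizer ({u} : Set G) :=
      mem_centralizer_singleton.2 (mem_centralizer_conj.1 hxn u (hIK hu))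
    interval_cases d
    · rw [pow_one] at hd; exact pow_mem hd 3
    · exact pow_mem (mem_of_sq_of_odd hn hd hxnu) 3
    · exact hd
  have hx3 : x ^ 3 ∈ Subgroup.centralizer (K : Set G) := by
    refine mem_centralizer_conj.2 fun k hk => fix_comm hK (pow_mem hxN 3) hn
      (by rw [← pow_mul, mul_comm, pow_mul]; exact pow_mem hxn 3) hk (h3 _ ?_)
    have hu : x * k * x⁻¹ * k⁻¹ ∈ δ.range := ⟨⟨k, hk⟩, rfl⟩
    have e : x ^ 3 * k * (x ^ 3)⁻¹ * k⁻¹ = (x ^ 2 * (x * k * x⁻¹ * k⁻¹) * (x ^ 2)⁻¹) *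
        (x * (x * k * x⁻¹ * k⁻¹) * x⁻¹) * (x * k * x⁻¹ * k⁻¹) := by group
    rw [e]
    exact mul_mem (mul_mem (hIxi 2 _ hu) (hIx _ hu)) hu
  exact false_of_three hS4 hKL hK hxL hrL hxN hrN hr hx3 hx hinv

/-! ### Inverted elements -/

theorem oddCore_le {H : Type*} [Group H] [Finite H] {R W : Subgroup H} (hR : Good 2 true R) (hR1 : R ≠ ⊥)
    (hW : ∀ B : Subgroup H, B ≤ R → Nat.card R = 2 * Nat.card B →
      Cfsg.pPrimeCore 2 H ⊓ Subgroup.centralizer (B : Set H) ≤ W) : Cfsg.pPrimeCore 2 H ≤ W := by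
  haveI : Fact (Nat.Prime 2) := ⟨Nat.prime_two⟩
  haveI := hR.1
  haveI := Cfsg.pPrimeCore_normal 2 H
  obtain ⟨k, hk⟩ := IsPGroup.iff_card.1 (show IsPGroup 2 R from fun a => ⟨1, Subtype.ext (by
    rw [pow_one]; exact hR.2 rfl _ a.2)⟩)
  refine CfsgLib.CoprimeAction.le_of_hyperplane_centralizers_le (p := 2) hR1 (hR.2 rfl)
    (le_top.trans_eq (Subgroup.normalizer_eq_top _).symm)
    (hk ▸ ((CfsgLib.PCore.pPrimeCore_coprime 2 H).symm.pow_left k)) fun B hB hidx => hW B hB ?_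
  have h1 := Subgroup.relIndex_mul_relIndex ⊥ B R bot_le hB
  rw [Subgroup.relIndex_bot_left, Subgroup.relIndex_bot_left, hidx] at h1
  omega

theorem odd_of_mem_oddCore {H : Type*} [Group H] [Finite H] {y : H} (hy : y ∈ Cfsg.pPrimeCore 2 H) :
    Odd (orderOf y) :=
  Nat.coprime_two_right.1 (Nat.Coprime.coprime_dvd_left (Subgroup.orderOf_dvd_natCard _ hy)
    (CfsgLib.PCore.pPrimeCore_coprime 2 H))

theorem inverted_of_commutator {H : Type*} [Group H] {R : Subgroup H} (hR : Good 2 true R) {B : Subgroup H}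
    (hB : B ≤ R) {r f : H} (hr : r ∈ R) (hf : ∀ b ∈ B, b * f = f * b) :
    r * (f⁻¹ * (r * f * r⁻¹)) * r⁻¹ = (f⁻¹ * (r * f * r⁻¹))⁻¹ ∧
      ∀ b ∈ B, b * (f⁻¹ * (r * f * r⁻¹)) = f⁻¹ * (r * f * r⁻¹) * b := by
  have hrr : r * r = 1 := by rw [← pow_two]; exact hR.2 rfl r hr
  have hri : r⁻¹ = r := inv_eq_of_mul_eq_one_right hrr
  refine ⟨?_, fun b hb => ?_⟩
  · calc r * (f⁻¹ * (r * f * r⁻¹)) * r⁻¹ = r * f⁻¹ * r * f * (r⁻¹ * r⁻¹) := by group
      _ = r * f⁻¹ * r * f := by rw [hri, hrr, mul_one]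
      _ = (f⁻¹ * (r * f * r⁻¹))⁻¹ := by simp [mul_assoc, hri]
  · have hbf : Commute b f := hf b hb
    have hbr : Commute b r := CfsgLib.ZJ.good_commute hR (hB hb) hr
    exact (hbf.inv_right.mul_right ((hbr.mul_right hbf).mul_right hbr.inv_right)).eq

theorem exists_inverted {H : Type*} [Group H] [Finite H] [Group.IsSolvable H] (hO : Cfsg.pCore 2 H = ⊥)
    {R : Subgroup H} (hR : Good 2 true R) (hR1 : R ≠ ⊥) :
    ∃ (B : Subgroup H) (r y : H), B ≤ R ∧ Nat.card R = 2 * Nat.card B ∧ r ∈ R ∧ r ∉ B ∧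
      y ≠ 1 ∧ Odd (orderOf y) ∧ (∀ b ∈ B, b * y = y * b) ∧ r * y * r⁻¹ = y⁻¹ := by
  haveI : Fact (Nat.Prime 2) := ⟨Nat.prime_two⟩
  by_contra hno
  have hFC : Cfsg.pPrimeCore 2 H ≤ Subgroup.centralizer (R : Set H) := by
    refine oddCore_le hR hR1 fun B hB hc f hf => mem_centralizer.2 fun r hr => ?_
    by_contra hne
    have hrB : r ∉ B := fun h => hne (mem_centralizer.1 hf.2 r h)
    obtain ⟨h1, h2⟩ := inverted_of_commutator hR hB hr fun b hb => mem_centralizer.1 hf.2 b hb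
    refine hno ⟨B, r, _, hB, hc, hr, hrB, fun e => hne ?_, ?_, h2, h1⟩
    · rw [inv_mul_eq_one] at e
      exact mul_inv_eq_iff_eq_mul.1 e.symm
    · exact odd_of_mem_oddCore (mul_mem (inv_mem hf.1) ((Cfsg.pPrimeCore_normal 2 H).conj_mem _ hf.1 r))
  refine hR1 (eq_bot_iff.2 fun r hr => ?_)
  have h1 := CfsgLib.PLocalBasics.centralizer_pPrimeCore_le 2 CfsgLib.PCore.isPSolvable_of_isSolvable hO
    (show r ∈ Subgroup.centralizer (Cfsg.pPrimeCore 2 H : Set H) from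
      mem_centralizer.2 fun f hf => (mem_centralizer.1 (hFC hf) r hr).symm)
  rw [Subgroup.mem_bot, ← orderOf_eq_one_iff]
  exact Nat.eq_one_of_dvd_coprimes (Nat.coprime_two_right.2 (odd_of_mem_oddCore h1)) dvd_rfl
    (orderOf_dvd_of_pow_eq_one (hR.2 rfl r hr))

/-- An inverted element of odd order lifts to an inverted element of odd order. -/
theorem exists_lift_inverted {M H : Type*} [Group M] [Finite M] [Group H] (π : M →* H)
    (hπ : Function.Surjective π) (a : M) (ha : a * a = 1) {y : H} (hy : Odd (orderOf y))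
    (hinv : π a * y * (π a)⁻¹ = y⁻¹) :
    ∃ x : M, Odd (orderOf x) ∧ a * x * a⁻¹ = x⁻¹ ∧ π x = y := by
  obtain ⟨l, rfl⟩ := hπ y
  have hai : a⁻¹ = a := inv_eq_of_mul_eq_one_right ha
  set z := l * a * l⁻¹ * a with hz
  have hza : a * z * a⁻¹ = z⁻¹ := by rw [hz]; simp [mul_assoc, hai, ha]
  have hzπ : π z = π l ^ 2 := by
    have h2 : π a * (π l)⁻¹ * π a = π l := by
      have e := congrArg (·⁻¹) hinv
      simp only [mul_inv_rev, inv_inv] at e
      rw [← mul_assoc, show (π a)⁻¹ = π a by rw [← map_inv, hai]] at e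
      exact e
    rw [hz, map_mul, map_mul, map_mul, map_inv, pow_two, mul_assoc (π l) (π a), mul_assoc (π l), h2]
  obtain ⟨k, m, hm, hkm⟩ := (orderOf z).exists_eq_pow_mul_and_not_dvd (orderOf_pos z).ne' 2 (by norm_num)
  obtain ⟨e, he⟩ := exists_pow_eq_self_of_coprime (x := π l) (n := 2 ^ (k + 1))
    ((Nat.coprime_two_left.2 hy).pow_left _)
  refine ⟨(z ^ 2 ^ k) ^ e, ?_, ?_, ?_⟩
  · have h1 : ((z ^ 2 ^ k) ^ e) ^ m = 1 := by
      rw [← pow_mul, ← pow_mul, mul_comm e, ← mul_assoc, pow_mul, ← hkm, pow_orderOf_eq_one, one_pow]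
    exact Odd.of_dvd_nat (Nat.odd_iff.2 (by omega)) (orderOf_dvd_of_pow_eq_one h1)
  · rw [← conj_pow, ← conj_pow, hza, inv_pow, inv_pow]
  · rw [map_pow, map_pow, hzπ, ← pow_mul _ 2, ← pow_succ', he]

/-! ### The squared bound for a reduced module -/

theorem conj_fixed {V : Subgroup G} {b g v : G} (hc : b * g * b⁻¹ * g⁻¹ ∈ Subgroup.centralizer (V : Set G))
    (hv : b * v * b⁻¹ = v) (hgv : g * v * g⁻¹ ∈ V) : b * (g * v * g⁻¹) * b⁻¹ = g * v * g⁻¹ := by
  calc b * (g * v * g⁻¹) * b⁻¹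
      = (b * g * b⁻¹ * g⁻¹) * (g * (b * v * b⁻¹) * g⁻¹) * (b * g * b⁻¹ * g⁻¹)⁻¹ := by group
    _ = g * v * g⁻¹ := by rw [hv]; exact mem_centralizer_conj.1 hc _ hgv

theorem sq_of_normal {L U V : Subgroup G} (hL : Loc L) (hUL : U ≤ L) (hU2 : IsPGroup 2 U) (hVU : V ≤ U)
    (hV : Good 2 true V) (hN : L ≤ Subgroup.normalizer (V : Set G))
    (hO : ∀ N : Subgroup G, N ≤ L → L ≤ Subgroup.normalizer (N : Set G) →
      (∀ n ∈ N, ∃ k : ℕ, n ^ 2 ^ k ∈ Subgroup.centralizer (V : Set G)) → N ≤ Subgroup.centralizer (V : Set G)) :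
    Sq U V := by
  classical
  refine ⟨hVU, hV, hUL.trans hN, fun R => ?_⟩
  set CV := Subgroup.centralizer (V : Set G) with hCV
  set C' := CV.subgroupOf L with hC'
  have hCn : ∀ {g c : G}, g ∈ L → c ∈ CV → g * c * g⁻¹ ∈ CV := by
    intro g c hg hc
    refine mem_centralizer_conj.2 fun v hv => ?_
    have h1 := mem_centralizer_conj.1 hc _ (conj_mem' (hN hg) hv)
    calc g * c * g⁻¹ * v * (g * c * g⁻¹)⁻¹ = g * (c * (g⁻¹ * v * g) * c⁻¹) * g⁻¹ := by group
      _ = v := by rw [h1]; group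
  haveI hC'n : C'.Normal := ⟨fun c hc g => hCn g.2 hc⟩
  set π := QuotientGroup.mk' C' with hπ
  have hπ1 : ∀ l : L, π l = 1 ↔ (l : G) ∈ CV := fun l => by
    rw [hπ, QuotientGroup.mk'_apply, QuotientGroup.eq_one_iff]; rfl
  haveI := hL.solv
  haveI : Group.IsSolvable (L ⧸ C') := Group.isSolvable_of_surjective (QuotientGroup.mk'_surjective C')
  have hOH : Cfsg.pCore 2 (L ⧸ C') = ⊥ := by
    set N := ((Cfsg.pCore 2 (L ⧸ C')).comap π).map L.subtype with hNdef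
    have h1 := hO N (Subgroup.map_subtype_le _) (fun l hl => mem_normalizer_of_conj fun v hv => by
      obtain ⟨w, hw, rfl⟩ := hv
      exact ⟨⟨l, hl⟩ * w * ⟨l, hl⟩⁻¹, ((Cfsg.pCore_normal 2 (L ⧸ C')).comap π).conj_mem _ hw _, rfl⟩) (by
      rintro _ ⟨w, hw, rfl⟩
      obtain ⟨k, hk⟩ := CfsgLib.PCore.isPGroup_pCore 2 (L ⧸ C') ⟨π w, hw⟩
      exact ⟨k, (hπ1 (w ^ 2 ^ k)).1 (by rw [map_pow]; exact congrArg Subtype.val hk)⟩)
    refine eq_bot_iff.2 fun h hh => ?_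
    obtain ⟨l, rfl⟩ := QuotientGroup.mk'_surjective C' h
    exact Subgroup.mem_bot.2 ((hπ1 l).2 (h1 ⟨l, hh, rfl⟩))
  induction hcard : Nat.card R using Nat.strong_induction_on generalizing R with
  | _ nR ih =>
  subst hcard
  intro hRU hcomm hsq
  by_cases hRC : R ≤ CV
  · rw [inf_eq_left.2 hRC, mul_comm]
    exact Nat.mul_le_mul_right _ (Subgroup.card_le_of_le inf_le_left)
  have hRL := hRU.trans hUL
  set R' := (R.subgroupOf L).map π with hR'
  have hR'g : Good 2 true R' := by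
    refine ⟨⟨⟨?_⟩⟩, ?_⟩
    · rintro ⟨_, a, ha, rfl⟩ ⟨_, b, hb, rfl⟩
      refine Subtype.ext ?_
      show π a * π b = π b * π a
      have h1 := (hπ1 (a * b * a⁻¹ * b⁻¹)).2 (hcomm _ ha _ hb)
      simpa [mul_inv_eq_one, mul_inv_eq_iff_eq_mul] using h1
    · rintro - _ ⟨a, ha, rfl⟩
      rw [← map_pow]
      exact (hπ1 _).2 (hsq _ ha)
  have hR'1 : R' ≠ ⊥ := by
    obtain ⟨g, hg, hgC⟩ := SetLike.not_le_iff_exists.1 hRC
    intro e
    have h1 : π ⟨g, hRL hg⟩ ∈ R' := ⟨⟨g, hRL hg⟩, hg, rfl⟩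
    rw [e, Subgroup.mem_bot] at h1
    exact hgC ((hπ1 _).1 h1)
  obtain ⟨B, r', y, hBR, hBc, hr', hrB, hy1, hyodd, hcy, hinv⟩ := exists_inverted hOH hR'g hR'1
  obtain ⟨r, hr, rfl⟩ := hr'
  obtain ⟨x, rfl⟩ := QuotientGroup.mk'_surjective C' y
  set R₁ := R ⊓ (B.comap π).map L.subtype with hR₁
  have hmemR₁ : ∀ g : L, (g : G) ∈ R₁ ↔ (g : G) ∈ R ∧ π g ∈ B := fun g => by
    constructor
    · rintro ⟨h1, w, hw, e⟩
      exact ⟨h1, (Subtype.ext e : w = g) ▸ hw⟩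
    · rintro ⟨h1, h2⟩
      exact ⟨h1, g, h2, rfl⟩
  have hrR₁ : (r : G) ∉ R₁ := fun h => hrB ((hmemR₁ r).1 h).2
  have hlt : Nat.card R₁ < Nat.card R :=
    lt_of_le_of_ne (Subgroup.card_le_of_le inf_le_left) fun e =>
      hrR₁ (((Subgroup.eq_of_le_of_card_ge (inf_le_left : R₁ ≤ R) e.ge).ge : R ≤ R₁) hr)
  have hle2 : Nat.card R ≤ 2 * Nat.card R₁ := card_le_two_mul fun g hg hgn k hk hkn => by
    refine (hmemR₁ (⟨g, hRL hg⟩⁻¹ * ⟨k, hRL hk⟩)).2 ⟨mul_mem (inv_mem hg) hk, ?_⟩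
    rw [map_mul, map_inv]
    exact mul_mem_of_card_le_two hBR hBc.le (g := π ⟨g, hRL hg⟩) ⟨_, hg, rfl⟩
      (fun h => hgn ((hmemR₁ ⟨g, hRL hg⟩).2 ⟨hg, h⟩)) ⟨⟨k, hRL hk⟩, hk, rfl⟩
      (fun h => hkn ((hmemR₁ ⟨k, hRL hk⟩).2 ⟨hk, h⟩))
  have hxn : (x : G) ^ orderOf (π x) ∈ CV := by
    have := (hπ1 (x ^ orderOf (π x))).1 (by rw [map_pow, pow_orderOf_eq_one])
    simpa using this
  have hbx : ∀ b ∈ R₁, b * x * b⁻¹ * (x : G)⁻¹ ∈ CV := fun b hb => by
    have hb' := (hmemR₁ ⟨b, hRL hb.1⟩).1 hb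
    refine (hπ1 (⟨b, hRL hb.1⟩ * x * ⟨b, hRL hb.1⟩⁻¹ * x⁻¹)).1 ?_
    rw [map_mul, map_mul, map_mul, map_inv, map_inv, hcy _ hb'.2, ← hπ]
    group
  set K := V ⊓ Subgroup.centralizer (R₁ : Set G) with hKdef
  have hKmem : ∀ v, v ∈ K ↔ v ∈ V ∧ ∀ b ∈ R₁, b * v * b⁻¹ = v := fun v => by
    rw [hKdef, Subgroup.mem_inf, mem_centralizer]
    exact and_congr_right fun _ => forall₂_congr fun b _ => by rw [conj_eq_iff]
  have hrx : (r : G) * x * (r : G)⁻¹ * x ∈ CV := by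
    refine (hπ1 (r * x * r⁻¹ * x)).1 ?_
    rw [map_mul, map_mul, map_mul, map_inv, hinv, inv_mul_cancel]
  have hnorm : ∀ g : L, (∀ b ∈ R₁, b * g * b⁻¹ * (g : G)⁻¹ ∈ CV) → (g : G) ∈ Subgroup.normalizer (K : Set G) :=
    fun g hg => mem_normalizer_of_conj fun v hv => (hKmem _).2 ⟨conj_mem (hN g.2) ((hKmem v).1 hv).1, fun b hb =>
      conj_fixed (hg b hb) (((hKmem v).1 hv).2 b hb) (conj_mem (hN g.2) ((hKmem v).1 hv).1)⟩
  -- a nontrivial action on the fixed points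
  have hxK : (x : G) ∉ Subgroup.centralizer (K : Set G) := by
    intro hxc
    refine hy1 ((hπ1 x).2 (mem_centralizer_conj.2 fun v hv => ?_))
    have key : ∀ s : Finset R₁, (∀ w ∈ V, (∀ b ∈ s, (b : G) * w * (b : G)⁻¹ = w) → (x : G) * w * (x : G)⁻¹ = w) →
        ∀ w ∈ V, (x : G) * w * (x : G)⁻¹ = w := by
      intro s
      induction s using Finset.induction with
      | empty => exact fun h w hw => h w hw (by simp)
      | insert b s _ ihs =>
        intro h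
        refine ihs fun w hw hsw => fix_comm hV (hN x.2) hyodd hxn hw ?_
        have hbV : (b : G) ∈ Subgroup.normalizer (V : Set G) := hN (hRL b.2.1)
        have hxwV := conj_mem (hN x.2) hw
        -- the displacement of `w` by `b` is fixed by `x`
        set d := (b : G) * w * (b : G)⁻¹ * w⁻¹ with hd
        have hdV : d ∈ V := mul_mem (conj_mem hbV hw) (inv_mem hw)
        have hfixd : ∀ c ∈ s, (c : G) * d * (c : G)⁻¹ = d := fun c hc => by
          have h1 : (c : G) * ((b : G) * w * (b : G)⁻¹) * (c : G)⁻¹ = (b : G) * w * (b : G)⁻¹ :=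
            conj_fixed (hcomm _ c.2.1 _ b.2.1) (hsw c hc) (conj_mem hbV hw)
          rw [hd, ← conj_mul, h1, show (c : G) * w⁻¹ * (c : G)⁻¹ = w⁻¹ by rw [← conj_inv, hsw c hc]]
        have hdb : (b : G) * d * (b : G)⁻¹ = d := by
          have h2 : (b : G) * ((b : G) * w * (b : G)⁻¹) * (b : G)⁻¹ = w := by
            calc _ = (b : G) ^ 2 * w * ((b : G) ^ 2)⁻¹ := by rw [pow_two]; group
              _ = w := mem_centralizer_conj.1 (hsq _ b.2.1) w hw
          rw [hd, ← conj_mul, h2, ← conj_inv, CfsgLib.ZJ.good_commute hV (conj_mem hbV hw) (inv_mem hw)]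
          have e1 : ((b : G) * w * (b : G)⁻¹)⁻¹ = (b : G) * w * (b : G)⁻¹ :=
            inv_eq_of_mul_eq_one_right (by rw [← pow_two]; exact hV.2 rfl _ (conj_mem hbV hw))
          have e2 : w⁻¹ = w := inv_eq_of_mul_eq_one_right (by rw [← pow_two]; exact hV.2 rfl _ hw)
          rw [e1, e2]
        have hxd : (x : G) * d * (x : G)⁻¹ = d := h d hdV fun c hc => by
          rcases Finset.mem_insert.1 hc with rfl | hc
          exacts [hdb, hfixd c hc]
        set u := (x : G) * w * (x : G)⁻¹ * w⁻¹ with hu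
        have huV : u ∈ V := mul_mem hxwV (inv_mem hw)
        refine h u huV fun c hc => ?_
        rcases Finset.mem_insert.1 hc with rfl | hc
        · have e : (c : G) * ((x : G) * w * (x : G)⁻¹) * (c : G)⁻¹ = (x : G) * ((c : G) * w * (c : G)⁻¹) * (x : G)⁻¹ := by
            calc _ = ((c : G) * x * (c : G)⁻¹ * (x : G)⁻¹) * ((x : G) * ((c : G) * w * (c : G)⁻¹) * (x : G)⁻¹) *
                  ((c : G) * x * (c : G)⁻¹ * (x : G)⁻¹)⁻¹ := by group
              _ = _ := mem_centralizer_conj.1 (hbx _ c.2) _ (conj_mem (hN x.2) (conj_mem hbV hw))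
          rw [hu, ← conj_mul, e, show (c : G) * w * (c : G)⁻¹ = d * w by rw [hd]; group, ← conj_mul, hxd,
            show (c : G) * w⁻¹ * (c : G)⁻¹ = w⁻¹ * d⁻¹ by rw [← conj_inv, hd]; group]
          calc d * ((x : G) * w * (x : G)⁻¹) * (w⁻¹ * d⁻¹) = d * u * d⁻¹ := by rw [hu]; group
            _ = u := by rw [CfsgLib.ZJ.good_commute hV hdV huV, mul_inv_cancel_right]
        · rw [hu, ← conj_mul, conj_fixed (hbx _ c.2) (hsw c hc) hxwV,
            show (c : G) * w⁻¹ * (c : G)⁻¹ = w⁻¹ by rw [← conj_inv, hsw c hc]]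
    letI := Fintype.ofFinite R₁
    exact key Finset.univ (fun w hw hs => mem_centralizer_conj.1 hxc w
      ((hKmem w).2 ⟨hw, fun b hb => hs ⟨b, hb⟩ (Finset.mem_univ _)⟩)) v hv
  have hfour := four hL.s4free ((inf_le_left.trans hVU).trans hUL : K ≤ L)
    (CfsgLib.ZJ.good_mono inf_le_left hV) x.2 r.2 (hnorm x hbx) (hnorm r fun b hb => hcomm _ hb.1 _ hr)
    hyodd (Subgroup.centralizer_le inf_le_left hxn) (by
      obtain ⟨k, hk⟩ := hU2 ⟨(r : G), hRU hr⟩
      exact ⟨k, congrArg Subtype.val hk⟩)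
    (Subgroup.centralizer_le inf_le_left hrx) hxK
  have hVR : Nat.card ↥(V ⊓ Subgroup.centralizer (R : Set G)) ≤
      Nat.card ↥(K ⊓ Subgroup.centralizer ({(r : G)} : Set G)) :=
    Subgroup.card_le_of_le fun v hv => ⟨⟨hv.1, Subgroup.centralizer_le inf_le_left hv.2⟩,
      Subgroup.mem_centralizer_singleton_iff.2 (mem_centralizer.1 hv.2 _ hr).symm⟩
  have hIH := ih _ hlt R₁ rfl (inf_le_left.trans hRU) (fun a ha b hb => hcomm a ha.1 b hb.1) fun a ha => hsq a ha.1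
  have hR₁C : Nat.card ↥(R₁ ⊓ CV) ≤ Nat.card ↥(R ⊓ CV) := Subgroup.card_le_of_le (inf_le_inf_right _ inf_le_left)
  calc Nat.card R ^ 2 * Nat.card ↥(V ⊓ Subgroup.centralizer (R : Set G))
      ≤ (2 * Nat.card R₁) ^ 2 * Nat.card ↥(K ⊓ Subgroup.centralizer ({(r : G)} : Set G)) :=
        Nat.mul_le_mul (Nat.pow_le_pow_left hle2 2) hVR
    _ = Nat.card R₁ ^ 2 * (4 * Nat.card ↥(K ⊓ Subgroup.centralizer ({(r : G)} : Set G))) := by ring
    _ ≤ Nat.card R₁ ^ 2 * Nat.card K := Nat.mul_le_mul_left _ hfour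
    _ ≤ Nat.card V * Nat.card ↥(R₁ ⊓ CV) ^ 2 := hIH
    _ ≤ _ := Nat.mul_le_mul_left _ (Nat.pow_le_pow_left hR₁C 2)

/-- The conjugates of `W ≤ Ω₁(Z(U))` generate a module with the squared bound. -/
theorem sq_ncl {L U W : Subgroup G} (hL : Loc L) (hU : IsSyl L U) (hW : W ≤ Om U) : Sq U (ncl L W) := by
  haveI : Fact (Nat.Prime 2) := ⟨Nat.prime_two⟩
  have hWQ : W ≤ Om (core L) := fun w hw =>
    ⟨hL.char2 w (hU.le (hW hw).1) (fun q hq => (hW hw).2.1 q (core_le_syl hU hq)),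
      fun q hq => (hW hw).2.1 q (core_le_syl hU hq), (hW hw).2.2⟩
  have hle : ncl L W ≤ Om (core L) :=
    ncl_le hWQ ((le_normalizer_core L).trans (normalizer_le_normalizer_Om _))
  refine sq_of_normal hL hU.le hU.isPGroup ((hle.trans (Om_le _)).trans (core_le_syl hU))
    (CfsgLib.ZJ.good_mono hle (good_Om _)) (le_normalizer_ncl L W) fun N hNL hN hpow => ?_
  have hCW : Subgroup.centralizer (ncl L W : Set G) ≤ Subgroup.centralizer (W : Set G) :=
    Subgroup.centralizer_le (le_ncl L W)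
  have hNW : N ≤ Subgroup.centralizer (W : Set G) := by
    set H0 := (Subgroup.centralizer (W : Set G)).subgroupOf N with hH0
    set CN := (Subgroup.centralizer (ncl L W : Set G)).subgroupOf N with hCN
    haveI : CN.Normal := ⟨fun c hc g => mem_centralizer_conj.2 fun v hv => by
      have hgN := le_normalizer_ncl L W (hNL g.2)
      have h1 : (c : G) * ((g : G)⁻¹ * v * g) * (c : G)⁻¹ = (g : G)⁻¹ * v * g :=
        mem_centralizer_conj.1 hc _ (conj_mem' hgN hv)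
      show (g : G) * c * (g : G)⁻¹ * v * ((g : G) * c * (g : G)⁻¹)⁻¹ = v
      calc _ = (g : G) * ((c : G) * ((g : G)⁻¹ * v * g) * (c : G)⁻¹) * (g : G)⁻¹ := by group
        _ = v := by rw [h1]; group⟩
    have hp : IsPGroup 2 (N ⧸ CN) := fun z => by
      obtain ⟨n, rfl⟩ := QuotientGroup.mk'_surjective CN z
      obtain ⟨k, hk⟩ := hpow n n.2
      exact ⟨k, by rw [← map_pow]; exact (QuotientGroup.eq_one_iff _).2 hk⟩
    obtain ⟨j, hj⟩ := IsPGroup.iff_card.1 hp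
    have h1 : H0.index ∣ 2 ^ j := by
      rw [← hj]
      exact Subgroup.index_dvd_of_le (fun z hz => hCW hz : CN ≤ H0)
    have h2 : ¬ 2 ∣ H0.index := fun h =>
      (hU.inf_normal hNL hN).sylow.not_dvd_index (h.trans (Subgroup.index_dvd_of_le
        (fun z hz => mem_centralizer.2 fun w hw => ((hW hw).2.1 _ hz.1).symm :
          ((hU.inf_normal hNL hN).sylow : Subgroup N) ≤ H0)))
    obtain ⟨i, -, hi⟩ := (Nat.dvd_prime_pow Nat.prime_two).1 h1
    have hi0 : i = 0 := by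
      by_contra hne
      exact h2 (hi ▸ dvd_pow_self 2 hne)
    rw [hi0, pow_zero, Subgroup.index_eq_one, hH0] at hi
    exact Subgroup.subgroupOf_eq_top.1 hi
  intro n hn
  refine mem_centralizer_conj.2 fun v hv => ?_
  have hle' : ncl L W ≤ Subgroup.centralizer ({n} : Set G) := by
    refine (Subgroup.closure_le _).2 ?_
    rintro _ ⟨l, hl, w, hw, rfl⟩
    have h1 := mem_centralizer_conj.1 (hNW (conj_mem' (hN hl) hn)) w hw
    refine mem_centralizer_singleton'.2 ?_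
    calc n * (l * w * l⁻¹) * n⁻¹ = l * (l⁻¹ * n * l * w * (l⁻¹ * n * l)⁻¹) * l⁻¹ := by group
      _ = l * w * l⁻¹ := by rw [h1]
  exact mem_centralizer_singleton'.1 (hle' hv)

/-- The factorization with `Ω₁(Z(U))`. -/
theorem exists_factor {L U : Subgroup G} (hL : Loc L) (hU : IsSyl L U) {l : G} (hl : l ∈ L) :
    ∃ c ∈ Subgroup.centralizer (Om U : Set G),
      ∃ m ∈ L ⊓ (Subgroup.normalizer (X U : Set G) ⊓ Subgroup.normalizer (CfsgLib.ZJ.J 2 true U : Set G)),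
        c ∈ L ∧ l = c * m := by
  have hsq := sq_ncl hL hU (le_refl (Om U))
  set V := ncl L (Om U) with hV
  set C := L ⊓ Subgroup.centralizer (V : Set G) with hC
  have hCn : L ≤ Subgroup.normalizer (C : Set G) := fun g hg => mem_normalizer_of_conj fun c hc => by
    refine ⟨(mul_mem (mul_mem hg hc.1) (inv_mem hg) : g * c * g⁻¹ ∈ L), mem_centralizer_conj.2 fun v hv => ?_⟩
    have h1 := mem_centralizer_conj.1 hc.2 _ (conj_mem' (le_normalizer_ncl L _ hg) hv)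
    calc g * c * g⁻¹ * v * (g * c * g⁻¹)⁻¹ = g * (c * (g⁻¹ * v * g) * c⁻¹) * g⁻¹ := by group
      _ = v := by rw [h1]; group
  obtain ⟨n, hn, m, hm, rfl⟩ := hU.frattini (N := C) inf_le_left hCn hl
  have hJ : CfsgLib.ZJ.J 2 true U ≤ U ⊓ C :=
    le_inf (CfsgLib.ZJ.J_le U) (le_inf ((CfsgLib.ZJ.J_le U).trans hU.le) hsq.J_le_centralizer)
  have hX : X U ≤ U ⊓ C :=
    le_inf (X_le U) (le_inf ((X_le U).trans hU.le) hsq.X_le_centralizer)
  refine ⟨n, Subgroup.centralizer_le (le_ncl L _) hn.2, m, ⟨hm.1, ?_, ?_⟩, hn.1, rfl⟩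
  · exact X_eq_of_le hX inf_le_left ▸ normalizer_le_normalizer_X _ hm.2
  · exact CfsgLib.ZJ.J_eq_of_le hJ inf_le_left ▸ CfsgLib.ZJ.normalizer_le_normalizer_J _ hm.2

end CfsgLib.SolvFactor
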