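import Cfsg.Agent.SolvFactor.Generation
import Mathlib.GroupTheory.Nilpotent

/-!
Uniqueness of the maximal `2`-local over a Sylow `2`-subgroup when all `2`-locals are solvable, `S₄`-free and
of characteristic `2`.
-/

set_option autoImplicit false
set_option linter.unusedSectionVars false
set_option linter.style.haveILetI false

namespace CfsgLib.SolvFactor

variable {G : Type*} [Group G] [Finite G]

theorem isTwoLocal_map_conj {N : Subgroup G} (h : Cfsg.IsTwoLocal N) (g : G) :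
    Cfsg.IsTwoLocal (N.map (MulAut.conj g).toMonoidHom) := by
  obtain ⟨T, hT, hTne, rfl⟩ := h
  refine ⟨T.map (MulAut.conj g).toMonoidHom, hT.map _,
    fun e => hTne ((Subgroup.map_eq_bot_iff_of_injective _ (MulAut.conj g).injective).1 e), ?_⟩
  exact Subgroup.map_equiv_normalizer_eq T (MulAut.conj g)

theorem lt_inf_normalizer {T P : Subgroup G} (hP : IsPGroup 2 P) (hle : T ≤ P) (hne : T ≠ P) :
    ∃ y ∈ P ⊓ Subgroup.normalizer (T : Set G), y ∉ T := by
  haveI : Fact (Nat.Prime 2) := ⟨Nat.prime_two⟩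
  haveI : Group.IsNilpotent P := hP.isNilpotent
  have hlt : T.subgroupOf P < ⊤ := lt_top_iff_ne_top.2 fun h => hne (le_antisymm hle (Subgroup.subgroupOf_eq_top.1 h))
  obtain ⟨y, hyN, hyT⟩ := SetLike.exists_of_lt (Group.normalizerCondition_of_isNilpotent _ hlt)
  rw [← Subgroup.subgroupOf_normalizer_eq hle] at hyN
  exact ⟨y, ⟨y.2, hyN⟩, hyT⟩

theorem isSyl_of_sylow (S : Sylow 2 G) {L : Subgroup G} (h : (S : Subgroup G) ≤ L) : IsSyl L (S : Subgroup G) :=
  ⟨h, S.isPGroup', fun _ _ hP hle => S.is_maximal' hP hle⟩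

theorem isTwoLocal_normalizer {T : Subgroup G} (h2 : IsPGroup 2 T) (hne : T ≠ ⊥) :
    Cfsg.IsTwoLocal (Subgroup.normalizer (T : Set G)) := ⟨T, h2, hne, rfl⟩

/-- All `2`-locals over a Sylow `2`-subgroup lie in one, and it contains the normalizers of all nontrivial
subgroups of that Sylow subgroup. -/
theorem exists_unique_maximal (hG : ∀ N : Subgroup G, Cfsg.IsTwoLocal N → Loc N) (S : Sylow 2 G)
    (hS : (S : Subgroup G) ≠ ⊥) :
    ∃ M₀ : Subgroup G, Cfsg.IsTwoLocal M₀ ∧ (S : Subgroup G) ≤ M₀ ∧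
      ∀ R : Subgroup G, R ≤ (S : Subgroup G) → R ≠ ⊥ → Subgroup.normalizer (R : Set G) ≤ M₀ := by
  classical
  haveI : Fact (Nat.Prime 2) := ⟨Nat.prime_two⟩
  set U := (S : Subgroup G) with hUdef
  have hU2 : IsPGroup 2 U := S.isPGroup'
  have hOm := Om_ne_bot hU2 hS
  obtain ⟨z, hz, hz1⟩ : ∃ z ∈ Om U, z ≠ 1 := by
    by_contra hno
    push Not at hno
    exact hOm (eq_bot_iff.2 fun w hw => Subgroup.mem_bot.2 (hno w hw))
  have hzne : Subgroup.zpowers z ≠ ⊥ := by simpa [Subgroup.zpowers_eq_bot] using hz1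
  have hz2 : IsPGroup 2 (Subgroup.zpowers z) := hU2.to_le (Subgroup.zpowers_le.2 (Om_le U hz))
  set Nz := Subgroup.normalizer ((Subgroup.zpowers z : Subgroup G) : Set G) with hNz
  have hNzL : Cfsg.IsTwoLocal Nz := isTwoLocal_normalizer hz2 hzne
  have hCz : ∀ c : G, c * z * c⁻¹ = z → c ∈ Nz := fun c hc => mem_normalizer_of_conj fun w hw => by
    obtain ⟨i, rfl⟩ := Subgroup.mem_zpowers_iff.1 hw
    rw [← conj_zpow, hc]; exact Subgroup.zpow_mem _ (Subgroup.mem_zpowers z) i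
  set CA := Subgroup.centralizer (Om U : Set G) with hCA
  have hCANz : CA ≤ Nz := fun c hc => hCz c (mem_centralizer_conj.1 hc z hz)
  have hUCA : U ≤ CA := fun u hu => mem_centralizer.2 fun w hw => (hw.2.1 u hu).symm
  have hLA : Loc CA := (hG Nz hNzL).of_le hCANz
    ((core_le_syl (isSyl_of_sylow S (hUCA.trans hCANz))).trans hUCA)
  set J := CfsgLib.ZJ.J 2 true U with hJ
  have hJne : J ≠ ⊥ := CfsgLib.ZJ.J_ne_bot hU2 hS
  set B := Subgroup.normalizer (J : Set G) with hB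
  have hBL : Cfsg.IsTwoLocal B := isTwoLocal_normalizer (hU2.to_le (CfsgLib.ZJ.J_le U)) hJne
  have hUB : U ≤ B := fun u hu => CfsgLib.ZJ.normalizer_le_normalizer_J U (Subgroup.le_normalizer hu)
  set V := ncl B (Om U) with hV
  have hVX : V ≤ Om (X U) := by
    refine (Subgroup.closure_le _).2 ?_
    rintro _ ⟨b, hb, w, hw, rfl⟩
    obtain ⟨c, hc, m, hm, -, hbm⟩ := exists_factor (hG B hBL) (isSyl_of_sylow S hUB) (inv_mem hb)
    have hb' : b = m⁻¹ * c⁻¹ := by rw [← inv_inv b, hbm]; group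
    have h1 : c⁻¹ * w * c⁻¹⁻¹ = w := mem_centralizer_conj.1 (inv_mem hc) w hw
    rw [hb', show m⁻¹ * c⁻¹ * w * (m⁻¹ * c⁻¹)⁻¹ = m⁻¹ * (c⁻¹ * w * c⁻¹⁻¹) * m⁻¹⁻¹ by group, h1]
    exact conj_mem (normalizer_le_normalizer_Om (X U) (inv_mem hm.2.1)) (Om_le_Om_X U hw)
  have hVne : V ≠ ⊥ := fun e => hOm (eq_bot_iff.2 ((le_ncl B (Om U)).trans e.le))
  have hV2 : IsPGroup 2 V := hU2.to_le (hVX.trans ((Om_le _).trans (X_le U)))
  have hBV : B ≤ Subgroup.normalizer (V : Set G) := le_normalizer_ncl B _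
  have hCAV : CA ≤ Subgroup.normalizer (V : Set G) := by
    refine (le_gen _ CA U rfl hLA (isSyl_of_sylow S hUCA)).trans (sup_le ?_ (inf_le_right.trans hBV))
    exact (Subgroup.centralizer_le hVX).trans (Subgroup.centralizer_le_normalizer _)
  obtain ⟨M₀, ⟨hM₀L, hVM₀⟩, hmax⟩ := (Set.toFinite {N : Subgroup G | Cfsg.IsTwoLocal N ∧
    Subgroup.normalizer (V : Set G) ≤ N}).exists_maximal ⟨_, isTwoLocal_normalizer hV2 hVne, le_rfl⟩
  have hUM₀ : U ≤ M₀ := (hUB.trans hBV).trans hVM₀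
  have hover : ∀ L : Subgroup G, Cfsg.IsTwoLocal L → U ≤ L → L ≤ M₀ := by
    intro L hL hUL l hl
    obtain ⟨c, hc, m, hm, -, rfl⟩ := exists_factor (hG L hL) (isSyl_of_sylow S hUL) hl
    exact mul_mem (hVM₀ (hCAV hc)) (hVM₀ (hBV hm.2.2))
  have key : ∀ (k : ℕ) (T : Subgroup G), T ≤ M₀ → Nat.card G - Nat.card T = k → IsPGroup 2 T →
      (∀ y ∈ M₀, (∃ i : ℕ, y ^ 2 ^ i = 1) → (∀ t ∈ T, t * y = y * t) → y ∈ T) →
      ∀ L : Subgroup G, Cfsg.IsTwoLocal L → T ≤ L → L ≤ M₀ := by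
    intro k
    induction k using Nat.strong_induction_on with
    | _ k ih =>
    intro T hTM hk hT2 hinv L hL hTL
    subst hk
    have hgrow : ∀ T' : Subgroup G, T ≤ T' → T' ≠ T → T' ≤ M₀ → IsPGroup 2 T' →
        ∀ L' : Subgroup G, Cfsg.IsTwoLocal L' → T' ≤ L' → L' ≤ M₀ := by
      intro T' hle hne hT'M hT'2
      refine ih _ ?_ T' hT'M rfl hT'2 fun y hy hy2 hc => hle (hinv y hy hy2 fun t ht => hc t (hle ht))
      have h1 : Nat.card T < Nat.card T' := lt_of_le_of_ne (Subgroup.card_le_of_le hle)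
        fun e => hne (Subgroup.eq_of_le_of_card_ge hle e.ge).symm
      have h2 : Nat.card T' ≤ Nat.card G := Subgroup.card_le_card_group T'
      omega
    obtain ⟨T₁, hT₁, hTT₁⟩ := exists_isSyl (le_inf hTL hTM) hT2
    by_cases hTe : T₁ ≠ T
    · exact hgrow T₁ hTT₁ hTe (hT₁.le.trans inf_le_right) hT₁.isPGroup L hL (hT₁.le.trans inf_le_left)
    push Not at hTe
    subst hTe
    obtain ⟨m, hm, hmT⟩ := (isSyl_of_sylow S hUM₀).exists_conj hTM hT2
    set S' := U.map (MulAut.conj m⁻¹).toMonoidHom with hS'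
    have hTS' : T₁ ≤ S' := fun t ht => mem_map_conj.2 (by simpa using hmT t ht)
    have hS'M : S' ≤ M₀ := by
      rintro _ ⟨u, hu, rfl⟩
      exact M₀.mul_mem (M₀.mul_mem (M₀.inv_mem hm) (hUM₀ hu)) (by simpa using hm)
    have hS'2 : IsPGroup 2 S' := hU2.map _
    have hz' : m⁻¹ * z * m ∈ T₁ := by
      refine hinv _ (M₀.mul_mem (M₀.mul_mem (M₀.inv_mem hm) (hUM₀ (Om_le U hz))) hm)
        ⟨1, by rw [pow_one, show (m⁻¹ * z * m) ^ 2 = m⁻¹ * z ^ 2 * m by rw [pow_two, pow_two]; group, hz.2.2]; group⟩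
        fun t ht => ?_
      have h1 := hz.2.1 _ (hmT t ht)
      have h2 := congrArg (fun w => m⁻¹ * w * m) h1
      simpa [mul_assoc] using h2
    by_cases hfull : T₁ = S'
    · have h1 : U ≤ L.map (MulAut.conj m).toMonoidHom := fun u hu => mem_map_conj.2 (hTL (by
        rw [hfull]; exact ⟨u, hu, by simp⟩))
      have h2 := hover _ (isTwoLocal_map_conj hL m) h1
      intro l hl
      have h3 : m * l * m⁻¹ ∈ M₀ := h2 ⟨l, hl, rfl⟩
      simpa [mul_assoc] using M₀.mul_mem (M₀.mul_mem (M₀.inv_mem hm) h3) hm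
    set T' := S' ⊓ Subgroup.normalizer (T₁ : Set G) with hT'
    have hTT' : T₁ ≤ T' := le_inf hTS' Subgroup.le_normalizer
    have hT'ne : T' ≠ T₁ := by
      obtain ⟨y, hy, hyT⟩ := lt_inf_normalizer hS'2 hTS' hfull
      exact fun e => hyT (e.le hy)
    have hT'M : T' ≤ M₀ := inf_le_left.trans hS'M
    have hT'2 : IsPGroup 2 T' := hS'2.to_le inf_le_left
    have hTne : T₁ ≠ ⊥ := by
      intro e
      rw [e, Subgroup.mem_bot] at hz'
      exact hz1 (by
        have h4 := congrArg (fun w => m * w * m⁻¹) hz'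
        simpa [mul_assoc] using h4)
    have hNT : Subgroup.normalizer (T₁ : Set G) ≤ M₀ :=
      hgrow T' hTT' hT'ne hT'M hT'2 _ (isTwoLocal_normalizer hT2 hTne) inf_le_right
    have hTL' : IsSyl L T₁ := by
      refine ⟨hTL, hT2, fun P hPL hP hle => ?_⟩
      by_contra hne
      obtain ⟨y, hy, hyT⟩ := lt_inf_normalizer hP hle (fun e => hne e.symm)
      have h1 := hT₁.2.2 (P ⊓ Subgroup.normalizer (T₁ : Set G))
        (le_inf (inf_le_left.trans hPL) (inf_le_right.trans hNT)) (hP.to_le inf_le_left)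
        (le_inf hle Subgroup.le_normalizer)
      exact hyT (h1.le hy)
    intro l hl
    obtain ⟨c, hc, n, hn, -, rfl⟩ := exists_factor (hG L hL) hTL' hl
    refine mul_mem ?_ ?_
    · have hzT : m⁻¹ * z * m ∈ Om T₁ := by
        refine ⟨hz', fun t ht => ?_, ?_⟩
        · have h2 := congrArg (fun w => m⁻¹ * w * m) (hz.2.1 _ (hmT t ht))
          simpa [mul_assoc] using h2
        · rw [show (m⁻¹ * z * m) ^ 2 = m⁻¹ * z ^ 2 * m by rw [pow_two, pow_two]; group, hz.2.2]; group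
      have h1 := mem_centralizer_conj.1 hc _ hzT
      have h2 : (m * c * m⁻¹) * z * (m * c * m⁻¹)⁻¹ = z := by
        calc _ = m * (c * (m⁻¹ * z * m) * c⁻¹) * m⁻¹ := by group
          _ = z := by rw [h1]; group
      have hUNz : U ≤ Nz := hUCA.trans hCANz
      have h3 := M₀.mul_mem (M₀.mul_mem (M₀.inv_mem hm) (hover Nz hNzL hUNz (hCz _ h2))) hm
      simpa [mul_assoc] using h3
    · have hJne' : CfsgLib.ZJ.J 2 true T₁ ≠ ⊥ := CfsgLib.ZJ.J_ne_bot hT2 hTne
      exact hgrow T' hTT' hT'ne hT'M hT'2 _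
        (isTwoLocal_normalizer (hT2.to_le (CfsgLib.ZJ.J_le _)) hJne')
        (inf_le_right.trans (CfsgLib.ZJ.normalizer_le_normalizer_J _)) hn.2.2
  refine ⟨M₀, hM₀L, hUM₀, fun R hR hR1 => ?_⟩
  set L := Subgroup.normalizer (R : Set G) with hL
  obtain ⟨T, hT, hRT⟩ := exists_isSyl (L := L ⊓ M₀) (le_inf Subgroup.le_normalizer (hR.trans hUM₀))
    (hU2.to_le hR)
  refine key _ T (hT.le.trans inf_le_right) rfl hT.isPGroup (fun y hy hy2 hc => ?_) L
    (isTwoLocal_normalizer (hU2.to_le hR) hR1) (hT.le.trans inf_le_left)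
  have hyL : y ∈ L ⊓ M₀ := ⟨mem_normalizer_of_conj fun r hr => by
    rw [conj_eq_iff.2 (hc r (hRT hr)).symm]; exact hr, hy⟩
  obtain ⟨i, hi⟩ := hy2
  have hy2' : IsPGroup 2 (Subgroup.zpowers y) := by
    obtain ⟨j, -, hj⟩ := (Nat.dvd_prime_pow Nat.prime_two).1 (orderOf_dvd_of_pow_eq_one hi)
    exact IsPGroup.of_card (n := j) (by rw [Nat.card_zpowers, hj])
  have hn : Subgroup.zpowers y ≤ Subgroup.normalizer (T : Set G) := Subgroup.zpowers_le.2
    (mem_normalizer_of_conj fun t ht => by rw [conj_eq_iff.2 (hc t ht).symm]; exact ht)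
  have h1 := hT.2.2 (Subgroup.zpowers y ⊔ T) (sup_le (Subgroup.zpowers_le.2 hyL) hT.le)
    (hy2'.to_sup_of_normal_right' hT.isPGroup hn) le_sup_right
  exact h1.le (Subgroup.mem_sup_left (Subgroup.mem_zpowers y))

end CfsgLib.SolvFactor
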